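import Cfsg.Agent.Lib.Sgr.GDefs

/-!
Singer normaliser, package ORB2: the Cauchy–Schwarz count.
-/

set_option autoImplicit false

namespace CfsgLib.Sgr

open Cfsg CfsgLib.Char
open scoped ComplexConjugate

variable {G : Type*} [Group G] [Finite G] {Ω : Type*} [MulAction G Ω] [Finite Ω] {T : Subgroup G}
  {m g : ℕ}

theorem orb2_ncard {α : Type*} [Fintype α] (R : Type*) [Semiring R] (p : α → Prop) [DecidablePred p] :
    ({x | p x}.ncard : R) = ∑ x, if p x then 1 else 0 := by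
  rw [Finset.sum_boole, ← Set.ncard_coe_finset]
  simp

/-- `D = #{(y,t) : Γ y (t y)}`, `S = #{(y,x,t) : Γ y x, Γ y (t x)}`. -/
theorem cs_count (hT : Nat.card T = m) (hfree : ∀ t ∈ T, t ≠ 1 → ∀ x : Ω, t • x ≠ x)
    (hΩ : Nat.card Ω = g * m) (hg : 0 < g) {Γ : Ω → Ω → Prop} {κ : ℕ}
    (hκ : ∀ y, {x | Γ y x}.ncard = κ) :
    (({z : Ω × T | Γ z.1 ((z.2 : G) • z.1)}.ncard : ℤ) - m * κ) ^ 2 ≤
      g * m * (({z : Ω × Ω × T | Γ z.1 z.2.1 ∧ Γ z.1 ((z.2.2 : G) • z.2.1)}.ncard : ℤ) -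
        m * κ ^ 2) := by
  classical
  have := Fintype.ofFinite Ω
  have := Fintype.ofFinite T
  let I : Ω → Ω → ℤ := fun y x => if Γ y x then 1 else 0
  let k : Ω → Ω → ℤ := fun y x => ∑ t : T, I y (t • x)
  have hI : ∀ y, ∑ x, I y x = κ := fun y => by rw [← hκ y, orb2_ncard]
  have cT : ∀ c : ℤ, ∑ _t : T, c = m * c := fun c => by simp [← hT]
  have cΩ : ∀ c : ℤ, ∑ _x : Ω, c = g * m * c := fun c => by
    rw [Finset.sum_const, Finset.card_univ, ← Nat.card_eq_fintype_card, hΩ]; simp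
  have sh : ∀ (t : T) (f : Ω → ℤ), ∑ x, f (t • x) = ∑ x, f x := fun t f => Equiv.sum_comp (MulAction.toPerm t) f
  have k0 : ∀ y (s : T) x, k y (s • x) = k y x := fun y s x => by
    simpa only [k, mul_smul, Equiv.coe_mulRight] using Equiv.sum_comp (Equiv.mulRight s) fun t : T => I y (t • x)
  have k1 : ∀ y, ∑ x, k y x = m * κ := fun y => by
    rw [Finset.sum_comm, Finset.sum_congr rfl fun t _ => (sh t (I y)).trans (hI y), cT]
  have k2 : ∀ y, ∑ x, k y x ^ 2 = m * ∑ x, I y x * k y x := fun y => by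
    rw [← cT, Finset.sum_congr rfl fun t _ => (sh t fun x => I y x * k y x).symm, Finset.sum_comm]
    exact Finset.sum_congr rfl fun x _ => by simp only [k0, ← Finset.sum_mul, sq]; rfl
  have hm : (0 : ℤ) < m := by exact_mod_cast hT ▸ Nat.card_pos
  have k3 : ∀ y, (g * k y y - κ) ^ 2 ≤ g * (g * ∑ x, I y x * k y x - κ ^ 2) := fun y => by
    have h1 : ∑ t : T, (g * k y (t • y) - κ) ^ 2 ≤ ∑ x, (g * k y x - κ) ^ 2 := by
      rw [← Finset.sum_image (s := Finset.univ) (g := fun t : T => t • y) (f := fun x => (g * k y x - κ) ^ 2)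
        fun s _ t _ e => by
          by_contra ne
          exact hfree _ (t⁻¹ * s).2 (fun e => ne (inv_mul_eq_one.1 (Subtype.ext e)).symm) y
            (show (t⁻¹ * s) • y = y by rw [mul_smul, inv_smul_eq_iff]; exact e)]
      exact Finset.sum_le_sum_of_subset_of_nonneg (Finset.subset_univ _) fun _ _ _ => sq_nonneg _
    simp only [k0, cT] at h1
    simp only [sub_sq (g * k y _), mul_pow, Finset.sum_add_distrib, Finset.sum_sub_distrib, ← Finset.mul_sum,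
      ← Finset.sum_mul, k1, k2, cΩ] at h1
    refine le_of_mul_le_mul_left ?_ hm
    rw [sub_sq, mul_pow]
    linarith
  have h1 := (sq_sum_le_card_mul_sum_sq (s := Finset.univ) (f := fun y => g * k y y - κ)).trans
    (mul_le_mul_of_nonneg_left (Finset.sum_le_sum fun y _ => k3 y) (by positivity))
  simp only [Finset.sum_sub_distrib, ← Finset.mul_sum, cΩ, Finset.card_univ, ← Nat.card_eq_fintype_card, hΩ] at h1
  have e1 : ({z : Ω × T | Γ z.1 ((z.2 : G) • z.1)}.ncard : ℤ) = ∑ y, k y y := by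
    rw [orb2_ncard, Fintype.sum_prod_type]; rfl
  have e2 : ({z : Ω × Ω × T | Γ z.1 z.2.1 ∧ Γ z.1 ((z.2.2 : G) • z.2.1)}.ncard : ℤ) = ∑ y, ∑ x, I y x * k y x := by
    simp only [orb2_ncard, Fintype.sum_prod_type, k, I, Finset.mul_sum, ite_and, ite_mul, one_mul, zero_mul]; rfl
  rw [e1, e2]
  refine le_of_mul_le_mul_left ?_ (show (0 : ℤ) < g ^ 2 by positivity)
  push_cast at h1
  linarith

theorem arith_zero {m g κ S : ℕ} (hm : 2 ≤ m) (h1 : ((0 : ℤ) - m * κ) ^ 2 ≤ g * m * (S - m * κ ^ 2))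
    (h2 : (m - 1) * S ≤ m * ((m - 1) * κ ^ 2 + g * (g * m * κ))) : κ ≤ 2 * g ^ 3 := by
  obtain ⟨l, rfl⟩ : ∃ l, m = l + 1 := ⟨m - 1, by omega⟩
  rw [Nat.add_sub_cancel] at h2
  rcases Nat.eq_zero_or_pos κ with rfl | hκ
  · omega
  zify at h2 hm hκ ⊢
  push_cast at h1
  have h3 : (l : ℤ) * ((l + 1) * κ) ^ 2 ≤ g * (l + 1) * (g ^ 2 * (l + 1) ^ 2 * κ) := by
    have a := mul_le_mul_of_nonneg_left h1 (show (0 : ℤ) ≤ l by positivity)
    have b := mul_le_mul_of_nonneg_left h2 (show (0 : ℤ) ≤ g * (l + 1) by positivity)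
    linarith
  have h4 : (l : ℤ) * κ ≤ g ^ 3 * (l + 1) :=
    le_of_mul_le_mul_left (a := ((l : ℤ) + 1) ^ 2 * κ) (by linarith) (by positivity)
  refine le_of_mul_le_mul_left (a := (l : ℤ)) ?_ (by omega)
  nlinarith [mul_le_mul_of_nonneg_left (show (l : ℤ) + 1 ≤ 2 * l by omega) (show (0 : ℤ) ≤ g ^ 3 by positivity)]

theorem arith_pos {m g κ S f : ℕ} (hg : 0 < g) (hm : 16 * g ^ 5 < m) (hf : m ≤ f)
    (h1 : ((((m - 1) * f : ℕ) : ℤ) - m * κ) ^ 2 ≤ g * m * (S - m * κ ^ 2))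
    (h2 : (m - 1) * S ≤ m * ((m - 1) * κ ^ 2 + g * (g * m * κ))) : g * m < (g + 1) * κ := by
  obtain ⟨l, rfl⟩ : ∃ l, m = l + 1 := ⟨m - 1, by omega⟩
  rw [Nat.add_sub_cancel] at h1 h2
  by_contra! h0
  have g5 : g ≤ g ^ 5 := Nat.le_self_pow (by omega) g
  zify at h2 hm hf h0 hg g5
  push_cast at h1
  have h3 : (l : ℤ) * (l * f - (l + 1) * κ) ^ 2 ≤ g * (l + 1) * (g ^ 2 * (l + 1) ^ 2 * κ) := by
    have a := mul_le_mul_of_nonneg_left h1 (show (0 : ℤ) ≤ l by positivity)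
    have b := mul_le_mul_of_nonneg_left h2 (show (0 : ℤ) ≤ g * (l + 1) by positivity)
    linarith
  have h4 : ((l : ℤ) + 1) * (l + 1) ≤ 2 * (g + 1) * (l * f - (l + 1) * κ) := by
    have a := mul_le_mul_of_nonneg_left hf (show (0 : ℤ) ≤ (g + 1) * l by positivity)
    have b := mul_le_mul_of_nonneg_left h0 (show (0 : ℤ) ≤ l + 1 by positivity)
    have c := mul_le_mul_of_nonneg_left (show (l : ℤ) + 1 ≤ 2 * (l - g) by omega) (show (0 : ℤ) ≤ l + 1 by positivity)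
    linarith
  have h5 := mul_le_mul_of_nonneg_left (pow_le_pow_left₀ (by positivity) h4 2) (show (0 : ℤ) ≤ l by positivity)
  have h6 := mul_le_mul_of_nonneg_left h3 (show (0 : ℤ) ≤ 4 * (g + 1) ^ 2 by positivity)
  have h7 := mul_le_mul_of_nonneg_left h0 (show (0 : ℤ) ≤ 4 * (g + 1) * g ^ 3 * (l + 1) ^ 3 by positivity)
  have h8 : (l : ℤ) ≤ 4 * (g + 1) * g ^ 4 :=
    le_of_mul_le_mul_left (a := ((l : ℤ) + 1) ^ 4) (by linarith) (by positivity)
  nlinarith [mul_le_mul_of_nonneg_right (show (g : ℤ) + 1 ≤ 2 * g by omega) (show (0 : ℤ) ≤ g ^ 4 by positivity)]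

end CfsgLib.Sgr
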