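import Cfsg.Agent.Lib.Sgr.Orb1
import Cfsg.Agent.Lib.Sgr.Orb2

/-!
Singer normaliser, package ORB3: subdegrees.
-/

set_option autoImplicit false
set_option linter.unusedSectionVars false

namespace CfsgLib.Sgr

open Cfsg CfsgLib.Char
open scoped ComplexConjugate

variable {G : Type*} [Group G] [Finite G] {Ω : Type*} [MulAction G Ω] [Finite Ω] {T : Subgroup G}
  {n m g : ℕ}

theorem orb3_card (htr : ∀ x y : Ω, ∃ a : G, a • x = y) (x y u : Ω) :
    {v | ∃ a : G, a • x = u ∧ a • y = v}.ncard = (sub2 G x y).ncard := by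
  obtain ⟨b, rfl⟩ := htr x u
  rw [← Set.ncard_image_of_injective (sub2 G x y) (MulAction.injective b)]
  congr 1
  ext v
  exact ⟨fun ⟨a, e1, e2⟩ => ⟨_, ⟨b⁻¹ * a, by rw [mul_smul, e1, inv_smul_smul], rfl⟩, by simp [mul_smul, e2]⟩,
    fun ⟨_, ⟨a, e1, rfl⟩, e2⟩ => ⟨b * a, by rw [mul_smul, e1], (mul_smul _ _ _).trans e2⟩⟩

theorem orb3_inv (x y : Ω) (b : G) (u v : Ω) :
    (∃ a : G, a • x = u ∧ a • y = v) → ∃ a : G, a • x = b • u ∧ a • y = b • v :=
  fun ⟨a, e1, e2⟩ => ⟨b * a, by rw [mul_smul, e1], by rw [mul_smul, e2]⟩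

theorem Sit.small (h : Sit Ω T n m g) (htr : ∀ x y : Ω, ∃ a : G, a • x = y) {x y : Ω}
    (hxy : x ≠ y) (hh : ∀ t ∈ T, ¬ Hit t x y) : (sub2 G x y).ncard ≤ 2 * g ^ 3 := by
  have h1 := cs_count h.card_T h.free h.card_Ω h.g_pos (orb3_card htr x y)
  rw [(Set.ncard_eq_zero (s := {z : Ω × T | ∃ a : G, a • x = z.1 ∧ a • y = (z.2 : G) • z.1})).2
    (Set.eq_empty_of_forall_notMem fun z ⟨a, e1, e2⟩ => hh _ z.2.2 ⟨a, by rw [e1, e2]⟩)] at h1
  exact arith_zero (lt_of_le_of_lt (Nat.le_add_left _ _) h.big) h1 (h.moment htr (orb3_inv x y) (orb3_card htr x y))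

theorem Sit.large (h : Sit Ω T n m g) (htr : ∀ x y : Ω, ∃ a : G, a • x = y)
    (hm : 16 * g ^ 5 < m) {x y : Ω} (hxy : x ≠ y) {t : G} (ht : t ∈ T) (hh : Hit t x y) :
    g * m < (g + 1) * (sub2 G x y).ncard := by
  classical
  have := Fintype.ofFinite Ω
  have := Fintype.ofFinite T
  obtain ⟨c, hc⟩ := hh
  have t1 : t ≠ 1 := fun e => hxy (MulAction.injective c (by simpa [e] using hc.symm))
  have h1 := cs_count h.card_T h.free h.card_Ω h.g_pos (orb3_card htr x y)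
  refine arith_pos (f := {u | ∃ a : G, a • x = u ∧ a • y = t • u}.ncard) h.g_pos hm ?_ ?_
    (h.moment htr (orb3_inv x y) (orb3_card htr x y))
  · rw [← h.card_T]
    refine Nat.card_le_card_of_injective (fun s : T => (⟨(s : G) • c • x, s * c, mul_smul _ _ _, by
      rw [mul_smul, hc, smul_smul, h.cc.comm s.2 ht, mul_smul]⟩ : {u | ∃ a : G, a • x = u ∧ a • y = t • u}))
      fun s s' e => by_contra fun ne => ?_
    exact h.free _ (s'⁻¹ * s).2 (fun e => ne (inv_mul_eq_one.1 (Subtype.ext e)).symm) (c • x)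
      (by rw [Subgroup.coe_mul, mul_smul, Subgroup.coe_inv, inv_smul_eq_iff]; exact congrArg Subtype.val e)
  · convert h1 using 3
    rw [orb2_ncard, Fintype.sum_prod_type_right, ← Finset.add_sum_erase _ _ (Finset.mem_univ 1),
      Finset.sum_eq_zero fun u _ => if_neg fun ⟨a, e1, e2⟩ => hxy (MulAction.injective a (by simpa [e1] using e2.symm)),
      Finset.sum_congr rfl fun s hs => (orb2_ncard ℤ _).symm.trans (congrArg _ (h.alpha (orb3_inv x y) s.2
        (fun e => Finset.ne_of_mem_erase hs (Subtype.ext e)) ht t1))]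
    simp [← h.card_T]

end CfsgLib.Sgr
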