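import Cfsg.Agent.Lib.Sgr.PDefs

/-!
Singer normaliser, package DER: the derivation lemma and the three monomial patterns.
-/

set_option autoImplicit false

namespace CfsgLib.Sgr

open MvPolynomial

variable {K : Type*} [Field K] {n : ℕ}

theorem der_coeff (ν u : Fin n →₀ ℕ) (a : K) (k l : Fin n) : coeff ν (X k * pderiv l (monomial u a)) =
    if u + Finsupp.single k 1 = ν + Finsupp.single l 1 then a * u l else 0 := by
  rw [pderiv_monomial, X, monomial_mul, one_mul, coeff_monomial]
  by_cases h : u l = 0
  · simp [h]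
  refine if_congr ?_ rfl rfl
  rw [← add_left_inj (Finsupp.single l 1), add_assoc,
    tsub_add_cancel_of_le (Finsupp.single_le_iff.2 (Nat.one_le_iff_ne_zero.2 h)), add_comm]

/-- derivation lemma -/
theorem der {p : ℕ} [CharP K p] {M B : Matrix (Fin n) (Fin n) K} {d : Fin n → K}
    (hMB : Matrix.diagonal d * M = M * B) {t : ℕ} (ht : ¬ p ∣ t) (hg : Good p t (df M t))
    {i j : Fin n} (hij : i ≠ j) : B i j = 0 := by
  let D : Derivation K (MvPolynomial (Fin n) K) (MvPolynomial (Fin n) K) :=
    mkDerivation K fun l => ∑ k, C (B l k) * X k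
  have hD : ∀ P, D P = ∑ l, ∑ k, C (B l k) * (X k * pderiv l P) := fun P => by
    induction P using MvPolynomial.induction_on with
    | C a => simp
    | add P Q h1 h2 => simp only [map_add, h1, h2, mul_add, Finset.sum_add_distrib]
    | mul_X P l h =>
      rw [D.leibniz, h, mkDerivation_X]
      simp only [Derivation.leibniz, smul_eq_mul, mul_add, Finset.sum_add_distrib, Finset.mul_sum, pderiv_X]
      congr 1
      · rw [eq_comm, Finset.sum_eq_single l (fun m _ hm => by simp [Pi.single_eq_of_ne' hm]) (by simp)]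
        exact Finset.sum_congr rfl fun k _ => by simp; ring
      · exact Finset.sum_congr rfl fun m _ => Finset.sum_congr rfl fun k _ => by ring
  have mul : ∀ P Q, (∃ c, D P = C c * P) → (∃ c, D Q = C c * Q) → ∃ c, D (P * Q) = C c * (P * Q) := by
    rintro P Q ⟨a, ha⟩ ⟨b, hb⟩
    exact ⟨a + b, by rw [D.leibniz, ha, hb, map_add, smul_eq_mul, smul_eq_mul]; ring⟩
  have one : ∃ c, D 1 = C c * 1 := ⟨0, by simp⟩
  obtain ⟨c, hc⟩ : ∃ c, D (sub M (NN K n) ^ t) = C c * sub M (NN K n) ^ t := by
    rw [NN, map_prod, ← Finset.prod_pow]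
    refine Finset.prod_induction _ (fun P => ∃ c, D P = C c * P) mul one fun m _ => ?_
    rw [← Finset.card_range t, ← Finset.prod_const]
    refine Finset.prod_induction _ (fun P => ∃ c, D P = C c * P) mul one fun _ _ => ⟨d m, ?_⟩
    have : ∀ l, D (X l) = ∑ k, B l k • X k := fun l => (mkDerivation_X _ _ _).trans (by simp only [C_mul'])
    simp only [sub_X, map_sum, C_mul', D.map_smul, this, Finset.smul_sum, smul_smul]
    rw [Finset.sum_comm]
    refine Finset.sum_congr rfl fun k _ => ?_
    rw [← Finset.sum_smul, ← Matrix.mul_apply, ← hMB, Matrix.diagonal_mul]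
  have t0 : t ≠ 0 := by rintro rfl; simp at ht
  let T : Fin n →₀ ℕ := Finsupp.equivFunOnFinite.symm fun _ => t
  have hT : NN K n ^ t = monomial T 1 := by
    rw [NN, ← Finset.prod_pow, monomial_eq, C_1, one_mul, Finsupp.prod_fintype _ _ (by simp)]; rfl
  have h0 : coeff (nu t j i) (df M t) = 0 := notMem_support_iff.1 fun h => (hg j i hij.symm _ h).1 rfl
  have h1 : ∀ k l, coeff (nu t j i) (X k * pderiv l (df M t)) = 0 := fun k l => by
    rw [(df M t).as_sum, map_sum, Finset.mul_sum, coeff_sum]
    refine Finset.sum_eq_zero fun u hu => ?_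
    rw [der_coeff]
    split_ifs with e
    · rw [(CharP.cast_eq_zero_iff K p _).2 ((hg j i hij.symm u hu).2 k l e), mul_zero]
    · rfl
  have h2 : ∀ l k, T + Finsupp.single k 1 = nu t j i + Finsupp.single l 1 ↔ l = i ∧ k = j := fun l k => by
    constructor
    · intro e
      have e1 := DFunLike.congr_fun e i
      have e2 := DFunLike.congr_fun e j
      simp [T, nu_apply, Finsupp.single_apply, hij] at e1 e2
      split_ifs at e1 e2 <;> omega
    · rintro ⟨rfl, rfl⟩
      ext m
      simp only [T, Finsupp.add_apply, nu_apply, Finsupp.single_apply, Finsupp.equivFunOnFinite_symm_apply_apply]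
      split_ifs <;> omega
  rw [← sub_add_cancel (sub M (NN K n) ^ t) (NN K n ^ t), ← df, hT] at hc
  have := congrArg (coeff (nu t j i)) hc
  simp only [hD, map_add, mul_add, coeff_sum, coeff_add, coeff_C_mul, h0, h1, der_coeff, h2, coeff_monomial] at this
  rw [if_neg fun e => by simpa [T, nu_apply] using DFunLike.congr_fun e j, Finset.sum_eq_single i (by simp +contextual)
    (by simp), Finset.sum_eq_single j (by simp +contextual) (by simp)] at this
  simpa [T, CharP.cast_eq_zero_iff K p, ht] using this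

theorem good_one {p t Q : ℕ} (hQ : p ∣ Q) (ht : t + 1 < Q) {R : MvPolynomial (Fin n) K}
    (h : ∀ u ∈ R.support, ∃ l, Q ≤ u l) : Good p t R := fun i j _ u hu => by
  obtain ⟨m, hm⟩ := h u hu
  refine ⟨fun e => ?_, fun k l e => ?_⟩
  · rw [e, nu_apply] at hm; split_ifs at hm <;> omega
  · have e1 := DFunLike.congr_fun e m
    simp only [Finsupp.add_apply, nu_apply, Finsupp.single_apply] at e1
    obtain ⟨rfl, e2⟩ : l = m ∧ u m = Q := by split_ifs at e1 <;> omega
    exact e2 ▸ hQ

theorem good_two {p t Q : ℕ} (hQ : p ∣ Q) (ht : t + 1 = Q) (h2 : 2 ≤ Q)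
    {R : MvPolynomial (Fin n) K}
    (h : ∀ u ∈ R.support, ∃ a b, Finsupp.single a Q + Finsupp.single b Q ≤ u) : Good p t R := fun i j _ u hu => by
  obtain ⟨a, b, hm⟩ := h u hu
  have ha := hm a
  have hb := hm b
  simp only [Finsupp.add_apply, Finsupp.single_apply] at ha hb
  refine ⟨fun e => ?_, fun k l e => ?_⟩
  · rw [e, nu_apply] at ha hb; split_ifs at ha hb <;> omega
  · have e1 := DFunLike.congr_fun e a
    have e2 := DFunLike.congr_fun e b
    simp only [Finsupp.add_apply, nu_apply, Finsupp.single_apply] at e1 e2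
    have : u l = Q := by
      by_cases hab : a = b
      · subst hab; split_ifs at e1 ha <;> omega
      by_cases la : l = a
      · subst la; split_ifs at e1 e2 ha hb <;> omega
      by_cases lb : l = b
      · subst lb; split_ifs at e1 e2 ha hb <;> omega
      split_ifs at e1 e2 ha hb <;> omega
    exact this ▸ hQ

theorem good_three {p t Q : ℕ} (hn : 5 ≤ n) (hQ : p ∣ Q) (ht : t + 1 < Q) (hpt : ¬ p ∣ t)
    {R : MvPolynomial (Fin n) K}
    (h : ∀ u ∈ R.support, (∃ l, Q ≤ u l) ∨ ∃ a, ∀ l, l ≠ a → p ∣ u l) : Good p t R := fun i j hij u hu => by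
  rcases h u hu with h | ⟨a, h⟩
  · exact good_one (K := K) hQ ht (R := monomial u 1) (fun w hw => by
      rwa [Finset.mem_singleton.1 (support_monomial_subset hw)]) i j hij u (by simp)
  have key : ∀ k l, l = a → u + Finsupp.single k 1 ≠ nu t i j + Finsupp.single l 1 := fun k l hl e => by
    obtain ⟨m, -, hm⟩ := Finset.exists_mem_notMem_of_card_lt_card (s := {i, j, k, a}) (t := Finset.univ)
      (Finset.card_le_four.trans_lt (by simpa using Nat.lt_of_succ_le hn))
    have e1 := DFunLike.congr_fun e m
    simp only [Finset.mem_insert, Finset.mem_singleton, not_or] at hm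
    simp only [Finsupp.add_apply, nu_apply, Finsupp.single_apply] at e1
    exact hpt ((show u m = t by split_ifs at e1 <;> omega) ▸ h m hm.2.2.2)
  exact ⟨fun e => key a a rfl (by rw [e]), fun k l e => h l fun la => key k l la e⟩

end CfsgLib.Sgr
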