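import Cfsg.Agent.Lib.Sgr.Ker
import Cfsg.Agent.Lib.Sgr.Der

/-!
Singer normaliser, package CORE: an invariant polynomial in the norm gives a good exponent.
-/

set_option autoImplicit false

namespace CfsgLib.Sgr

open MvPolynomial

variable {K : Type*} [Field K] {n : ℕ}

theorem core_pow_mod [Finite K] {q : ℕ} (hK : Nat.card K = q ^ n) (x : K) (k : ℕ) :
    x ^ q ^ (k % n) = x ^ q ^ k := by
  have := Fintype.ofFinite K
  have h1 : ∀ y : K, y ^ q ^ n = y := fun y => by
    rw [← hK, Nat.card_eq_fintype_card, FiniteField.pow_card]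
  have h2 : ∀ (j : ℕ) (y : K), y ^ q ^ (n * j) = y := fun j => by
    induction j with
    | zero => simp
    | succ j ih => intro y; rw [Nat.mul_succ, pow_add, pow_mul, ih, h1]
  conv_rhs => rw [← Nat.div_add_mod k n, pow_add, pow_mul, h2]

theorem core_evq_shift [Finite K] [NeZero n] {q : ℕ} (hK : Nat.card K = q ^ n) (x : K) (l : Fin n) :
    evq n q x (X (l + 1) : MvPolynomial (Fin n) K) = evq n q x (X l ^ q) := by
  rw [map_pow, evq_X, evq_X, ← pow_mul, ← pow_succ, Fin.val_add, Fin.val_one', Nat.add_mod_mod,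
    core_pow_mod hK]

/-- second layer: the top term `R ^ p ^ a` with all monomials of `R` in `J_Q`, `p ^ a * Q = q`. -/
theorem layer_two [Finite K] (p : ℕ) [Fact p.Prime] [CharP K p] {q a Q d : ℕ}
    (hq : p ^ a * Q = q) (ha : 0 < a) (hQ : 0 < Q) (hK : Nat.card K = q ^ n)
    {R S : MvPolynomial (Fin n) K} (hR : ∀ u ∈ R.support, ∃ l, Q ≤ u l)
    (hRd : ∀ u ∈ R.support, p ^ a * (∑ j, u j) + 1 = d + q)
    (hSd : ∀ w ∈ S.support, ∑ j, w j ≤ d) (h0 : ∀ x : K, evq n q x (R ^ p ^ a + S) = 0) :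
    (∀ w ∈ S.support, ∑ j, w j = d → (∃ l, q ≤ w l) ∨ ∃ b, ∀ l, l ≠ b → p ∣ w l) ∧
      ((∀ w ∈ S.support, ∑ j, w j ≠ d) →
        ∀ u ∈ R.support, ∃ b c, Finsupp.single b Q + Finsupp.single c Q ≤ u) := by
  classical
  have hp : p.Prime := Fact.out
  have hpa : 2 ≤ p ^ a := hp.two_le.trans (Nat.le_self_pow ha.ne' p)
  have hq2 : 2 ≤ q := by nlinarith
  have hn0 : n ≠ 0 := by
    rintro rfl
    have := Finite.one_lt_card (α := K)
    simp [hK] at this
  have : NeZero n := ⟨hn0⟩
  choose! l hl using hR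
  have hle : ∀ u ∈ R.support, Finsupp.single (l u) Q ≤ u := fun u hu =>
    Finsupp.single_le_iff.2 (hl u hu)
  let w : (Fin n →₀ ℕ) → (Fin n →₀ ℕ) := fun u =>
    Finsupp.single (l u + 1) 1 + p ^ a • (u - Finsupp.single (l u) Q)
  have hw : ∀ u j, w u j = (if l u + 1 = j then 1 else 0) +
      p ^ a * (u - Finsupp.single (l u) Q) j := fun u j => by
    simp only [w, Finsupp.add_apply, Finsupp.single_apply, Finsupp.smul_apply, smul_eq_mul]
  have hinj : ∀ u ∈ R.support, ∀ u' ∈ R.support, w u = w u' → u = u' := by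
    intro u hu u' hu' e
    have h1 : l u' + 1 = l u + 1 := by
      by_contra hne
      have h2 := DFunLike.congr_fun e (l u + 1)
      rw [hw, hw, if_pos rfl, if_neg hne, zero_add] at h2
      have h3 : p ^ a ∣ 1 := (Nat.dvd_add_left (Dvd.intro _ rfl)).1 (h2 ▸ Dvd.intro _ rfl)
      have := Nat.le_of_dvd one_pos h3
      omega
    have h2 : l u' = l u := add_right_cancel h1
    have h3 : u - Finsupp.single (l u) Q = u' - Finsupp.single (l u') Q := by
      ext j
      have h4 := DFunLike.congr_fun e j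
      rw [hw, hw, h1] at h4
      exact Nat.eq_of_mul_eq_mul_left (by omega) (Nat.add_left_cancel h4)
    rw [← tsub_add_cancel_of_le (hle u hu), ← tsub_add_cancel_of_le (hle u' hu'), h3, h2]
  have hdeg : ∀ u ∈ R.support, ∑ j, w u j = d := by
    intro u hu
    have h1 := hRd u hu
    have h2 : ∑ j, u j = ∑ j, (u - Finsupp.single (l u) Q) j + Q := by
      conv_lhs => rw [← tsub_add_cancel_of_le (hle u hu)]
      simp only [Finsupp.add_apply, Finset.sum_add_distrib, Finsupp.single_apply,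
        Finset.sum_ite_eq, Finset.mem_univ, if_true]
    simp only [hw, Finset.sum_add_distrib, Finset.sum_ite_eq, Finset.mem_univ, if_true,
      ← Finset.mul_sum]
    rw [h2, mul_add, hq] at h1
    omega
  set R2 : MvPolynomial (Fin n) K := ∑ u ∈ R.support, monomial (w u) (coeff u R ^ p ^ a) with hR2
  have hev : ∀ x : K, evq n q x R2 = evq n q x (R ^ p ^ a) := by
    intro x
    conv_rhs => rw [R.as_sum, sum_pow_char_pow]
    rw [hR2, map_sum, map_sum]
    refine Finset.sum_congr rfl fun u hu => ?_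
    have h1 : p ^ a • u = Finsupp.single (l u) q + p ^ a • (u - Finsupp.single (l u) Q) := by
      conv_lhs => rw [← tsub_add_cancel_of_le (hle u hu)]
      rw [smul_add, Finsupp.smul_single, smul_eq_mul, hq, add_comm]
    rw [monomial_pow, h1, ← one_mul (coeff u R ^ p ^ a)]
    show evq n q x (monomial (_ + _) _) = _
    rw [← monomial_mul, ← monomial_mul, map_mul, map_mul, ← X_pow_eq_monomial,
      ← X_pow_eq_monomial, pow_one, core_evq_shift hK]
  have hsupp : ∀ v ∈ R2.support, ∃ u ∈ R.support, v = w u := by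
    intro v hv
    obtain ⟨u, hu, h⟩ := Finset.mem_biUnion.1 (support_sum hv)
    exact ⟨u, hu, Finset.mem_singleton.1 (support_monomial_subset h)⟩
  have hco : ∀ u ∈ R.support, coeff (w u) R2 = coeff u R ^ p ^ a := by
    intro u hu
    rw [hR2, coeff_sum, Finset.sum_eq_single_of_mem u hu, coeff_monomial, if_pos rfl]
    intro u' hu' hne
    rw [coeff_monomial, if_neg fun e => hne (hinj u' hu' u hu e)]
  have key : ∀ v ∈ (R2 + S).support, ∑ j, v j = d → ∃ l, q ≤ v l := fun v hv hvd =>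
    ker hq2 hK (d := d) (fun v hv => by
      rcases Finset.mem_union.1 (support_add hv) with h | h
      · obtain ⟨u, hu, rfl⟩ := hsupp v h
        exact (hdeg u hu).le
      · exact hSd v h) (fun x => by rw [map_add, hev, ← map_add, h0]) hv hvd
  refine ⟨fun v hv hvd => ?_, fun hS u hu => ?_⟩
  · by_cases h : v ∈ R2.support
    · obtain ⟨u, hu, rfl⟩ := hsupp v h
      refine Or.inr ⟨l u + 1, fun j hj => ?_⟩
      rw [hw, if_neg (Ne.symm hj), zero_add]
      exact (dvd_pow_self p ha.ne').mul_right _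
    · refine Or.inl (key v ?_ hvd)
      rw [mem_support_iff, coeff_add, notMem_support_iff.1 h, zero_add]
      exact mem_support_iff.1 hv
  · have h1 : w u ∉ S.support := fun h => hS _ h (hdeg u hu)
    obtain ⟨c, hc⟩ := key (w u) (by
      rw [mem_support_iff, coeff_add, notMem_support_iff.1 h1, add_zero, hco u hu]
      exact pow_ne_zero _ (mem_support_iff.1 hu)) (hdeg u hu)
    have h2 : Q ≤ (u - Finsupp.single (l u) Q) c := by
      by_contra! hlt
      rw [hw, ← hq] at hc
      have h3 := Nat.mul_le_mul_left (p ^ a) (Nat.succ_le_of_lt hlt)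
      rw [Nat.mul_succ] at h3
      split_ifs at hc <;> omega
    refine ⟨l u, c, ?_⟩
    conv_rhs => rw [← tsub_add_cancel_of_le (hle u hu), add_comm]
    exact add_le_add_right (Finsupp.single_le_iff.2 h2) _

theorem core [Finite K] (p : ℕ) [Fact p.Prime] [CharP K p] {f e k : ℕ}
    (hK : Nat.card K = (p ^ f) ^ n) (hne : n * e + 1 = p ^ f) (he : 0 < e) (hn : 5 ≤ n)
    (M : Matrix (Fin n) (Fin n) K) (c : ℕ → K) (hk0 : 0 < k) (hk : k < n) (hc : c k ≠ 0)
    (h0 : ∀ x : K, evq n (p ^ f) x (∑ i ∈ Finset.range (k + 1), C (c i) * df M (e * i)) = 0) :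
    ∃ t, ¬ p ∣ t ∧ Good p t (df M t) := by
  classical
  have hp : p.Prime := Fact.out
  have hn0 : 0 < n := by omega
  have hf : f ≠ 0 := by
    rintro rfl
    have := Nat.mul_pos hn0 he
    simp at hne
    omega
  have hpq : p ∣ p ^ f := dvd_pow_self p hf
  have hq2 : 2 ≤ p ^ f := hp.two_le.trans (Nat.le_self_pow hf p)
  have hpe : ¬ p ∣ e := fun h =>
    hp.one_lt.ne' (Nat.dvd_one.1 ((Nat.dvd_add_right (h.mul_left n)).1 (hne ▸ hpq)))
  obtain ⟨k', rfl⟩ : ∃ k', k = k' + 1 := ⟨k - 1, by omega⟩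
  have hs0 : e * (k' + 1) ≠ 0 := by positivity
  have hslt : e * (k' + 1) + e + 1 ≤ p ^ f := by
    have := Nat.mul_le_mul_left e (show k' + 1 + 1 ≤ n by omega)
    nlinarith
  obtain ⟨a, s1, hs1, hs⟩ := Nat.exists_eq_pow_mul_and_not_dvd hs0 p hp.ne_one
  have hs10 : 0 < s1 := Nat.pos_of_ne_zero fun h => hs1 (h ▸ dvd_zero p)
  have hpa : 0 < p ^ a := pow_pos hp.pos a
  have haf : a < f := by
    have : p ^ a < p ^ f := by nlinarith
    exact (Nat.pow_lt_pow_iff_right hp.one_lt).1 this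
  have hQ : p ^ a * p ^ (f - a) = p ^ f := by rw [← pow_add, Nat.add_sub_cancel' haf.le]
  have hpQ : p ∣ p ^ (f - a) := dvd_pow_self p (by omega)
  set Q := p ^ (f - a)
  -- the normalised relation
  set S : MvPolynomial (Fin n) K :=
    ∑ i ∈ Finset.range (k' + 1), C ((c (k' + 1))⁻¹ * c i) * df M (e * i) with hS
  have h1 : ∀ x : K, evq n (p ^ f) x (df M s1 ^ p ^ a + S) = 0 := by
    intro x
    have h2 := h0 x
    rw [Finset.sum_range_succ, hs, df_mul_pow] at h2
    have h3 : df M s1 ^ p ^ a + S = C (c (k' + 1))⁻¹ *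
        (∑ i ∈ Finset.range (k' + 1), C (c i) * df M (e * i) + C (c (k' + 1)) * df M s1 ^ p ^ a) := by
      rw [mul_add, Finset.mul_sum, ← mul_assoc, ← C_mul, inv_mul_cancel₀ hc, C_1, one_mul, add_comm]
      simp only [hS, C_mul, mul_assoc]
    rw [h3, map_mul, h2, mul_zero]
  have hSs : ∀ w ∈ S.support, ∃ i ≤ k', c i ≠ 0 ∧ ∑ j, w j = n * (e * i) := by
    intro w hw
    obtain ⟨i, hi, h⟩ := Finset.mem_biUnion.1 (support_sum hw)
    rw [mem_support_iff, coeff_C_mul] at h
    exact ⟨i, Nat.lt_succ_iff.1 (Finset.mem_range.1 hi), fun e => h (by rw [e]; simp),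
      deg_df M _ (mem_support_iff.2 (right_ne_zero_of_mul h))⟩
  have hSd : ∀ w ∈ S.support, ∑ j, w j ≤ n * (e * k') := by
    intro w hw
    obtain ⟨i, hi, -, h⟩ := hSs w hw
    rw [h]
    exact Nat.mul_le_mul_left _ (Nat.mul_le_mul_left _ hi)
  have hlt : n * (e * k') < n * (e * (k' + 1)) :=
    Nat.mul_lt_mul_of_pos_left (Nat.mul_lt_mul_of_pos_left (Nat.lt_succ_self _) he) hn0
  have hR : ∀ u ∈ (df M s1).support, ∃ l, Q ≤ u l := by
    intro u hu
    have h2 : p ^ a • u ∈ (df M s1 ^ p ^ a).support := (mem_support_pow_char p _ a).2 ⟨u, hu, rfl⟩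
    have h3 : ∑ j, (p ^ a • u) j = n * (e * (k' + 1)) := by
      rw [hs]; exact deg_df M _ (by rw [df_mul_pow]; exact h2)
    obtain ⟨l, hl⟩ := ker hq2 hK (d := n * (e * (k' + 1))) (fun v hv => by
      rcases Finset.mem_union.1 (support_add hv) with h | h
      · rw [← df_mul_pow, ← hs] at h
        exact (deg_df M _ h).le
      · exact (hSd v h).trans hlt.le) h1 (u := p ^ a • u) (by
      have h4 : p ^ a • u ∉ S.support := fun h => by have := hSd _ h; omega
      rw [mem_support_iff, coeff_add, notMem_support_iff.1 h4, add_zero]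
      exact mem_support_iff.1 h2) h3
    rw [Finsupp.smul_apply, smul_eq_mul, ← hQ] at hl
    exact ⟨l, Nat.le_of_mul_le_mul_left hl hpa⟩
  by_cases hcase : s1 + 1 < Q
  · exact ⟨s1, hs1, good_one hpQ hcase hR⟩
  have hsQ : s1 + 1 = Q := by
    have : p ^ a * s1 < p ^ a * Q := by omega
    have := Nat.lt_of_mul_lt_mul_left this
    omega
  have hsum : e * (k' + 1) + p ^ a = p ^ f := by rw [hs, ← hQ, ← hsQ]; ring
  have ha : 0 < a := by
    rcases Nat.eq_zero_or_pos a with rfl | h
    · simp at hsum; omega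
    · exact h
  obtain ⟨h2, h3⟩ := layer_two p hQ ha (by omega) hK (d := n * (e * k')) hR (fun u hu => by
    rw [deg_df M _ hu, ← hne, mul_left_comm, ← hs]; ring) hSd h1
  by_cases hc' : c k' = 0
  · refine ⟨s1, hs1, good_two hpQ hsQ (by omega) (h3 fun w hw e' => ?_)⟩
    obtain ⟨i, hi, h4, h5⟩ := hSs w hw
    rw [h5] at e'
    have := Nat.eq_of_mul_eq_mul_left he (Nat.eq_of_mul_eq_mul_left hn0 e')
    exact h4 (this ▸ hc')
  · have hpt : ¬ p ∣ e * k' := fun h => hpe (by
      have h4 : p ∣ e * k' + e + p ^ a := by rw [← Nat.mul_succ, hsum]; exact hpq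
      exact (Nat.dvd_add_right h).1 ((Nat.dvd_add_left (dvd_pow_self p ha.ne')).1 h4))
    refine ⟨e * k', hpt, good_three hn hpq (by nlinarith) hpt fun u hu => h2 u ?_ (deg_df M _ hu)⟩
    rw [mem_support_iff, hS, coeff_sum, Finset.sum_eq_single_of_mem k' (by simp), coeff_C_mul]
    · exact mul_ne_zero (mul_ne_zero (inv_ne_zero hc) hc') (mem_support_iff.1 hu)
    · intro i _ hi
      rw [coeff_C_mul, notMem_support_iff.1 fun h => hi ?_, mul_zero]
      have h4 := (deg_df M _ h).symm.trans (deg_df M _ hu)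
      exact Nat.eq_of_mul_eq_mul_left he (Nat.eq_of_mul_eq_mul_left hn0 h4)

end CfsgLib.Sgr
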