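import Cfsg.Agent.Lib.Sgr.FDefs

/-!
Singer normaliser, package FLD: field facts.
-/

set_option autoImplicit false
set_option linter.unusedSectionVars false

namespace CfsgLib.Sgr

open Module CfsgLib.CK CfsgLib.ClMax

variable {F K : Type*} [Field F] [Finite F] [Field K] [Finite K] [Algebra F K]

theorem det_of_mul {a : K ≃ₗ[F] K} {t : K} (h : ∀ x, a x = t * x) :
    LinearMap.det (a : K →ₗ[F] K) = Algebra.norm F t := by
  rw [Algebra.norm_apply]
  congr 1
  ext x
  simpa using h x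

theorem det_gal (hodd : Odd (finrank F K)) (σ : K ≃ₐ[F] K) :
    LinearMap.det (σ.toLinearEquiv : K →ₗ[F] K) = 1 := by
  classical
  let b := IsGalois.normalBasis F K
  have h1 := b.det_comp (σ.toLinearEquiv : K →ₗ[F] K) b
  have h2 : ((σ.toLinearEquiv : K →ₗ[F] K) ∘ b) = b ∘ MulAction.toPerm σ := by
    funext τ
    show σ (b τ) = b (σ * τ)
    rw [IsGalois.normalBasis_apply τ, IsGalois.normalBasis_apply (σ * τ)]
    rfl
  have h3 : Equiv.Perm.sign (MulAction.toPerm σ : Equiv.Perm (K ≃ₐ[F] K)) ^ finrank F K = 1 := by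
    have h4 : σ ^ finrank F K = 1 := by rw [← card_gal]; exact pow_card_eq_one'
    rw [← map_pow]
    show Equiv.Perm.sign ((MulAction.toPermHom (K ≃ₐ[F] K) (K ≃ₐ[F] K) σ) ^ _) = 1
    rw [← map_pow, h4, map_one, map_one]
  have h5 : Equiv.Perm.sign (MulAction.toPerm σ : Equiv.Perm (K ≃ₐ[F] K)) = 1 := by
    rcases Int.units_eq_one_or (Equiv.Perm.sign
      (MulAction.toPerm σ : Equiv.Perm (K ≃ₐ[F] K))) with h | h
    · exact h
    · rw [h, hodd.neg_one_pow] at h3
      exact absurd h3 (by decide)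
  rw [h2, AlternatingMap.map_perm, h5, one_smul, b.det_self, mul_one] at h1
  exact h1.symm

theorem Hyp.T0_le {H : Subgroup (K ≃ₗ[F] K)} {n : ℕ} (h : Hyp H n) : T0 F K ≤ H := by
  rintro a ⟨t, -, hN, ha⟩
  exact h.semi a (by rw [det_of_mul ha, hN]) (semi_of_eq (c := t) (σ := 1) ha)

theorem Hyp.gal_mem {H : Subgroup (K ≃ₗ[F] K)} {n : ℕ} (h : Hyp H n) (σ : K ≃ₐ[F] K) :
    σ.toLinearEquiv ∈ H := by
  refine h.semi _ (det_gal ?_ σ) (semi_of_eq (c := 1) (σ := σ) fun x => (one_mul _).symm)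
  rw [h.rank]
  exact h.prime.odd_of_ne_two (by have := h.big; omega)

theorem fld_top (hp : (finrank F K).Prime) {t : K} (ht : t ∉ (algebraMap F K).range)
    {S : Subalgebra F K} (h : t ∈ S) : S = ⊤ := by
  rcases (Subalgebra.isSimpleOrder_of_finrank_prime F K hp).eq_bot_or_eq_top S with h1 | h1
  · rw [h1, Algebra.mem_bot] at h
    exact absurd h ht
  · exact h1

/-- `F[t] = K` -/
theorem semi_of_conj (hp : (finrank F K).Prime) {a : K →ₗ[F] K} {t t' : K}
    (ht : t ∉ (algebraMap F K).range) (h : ∀ x, a (t * x) = t' * a x) : Semi a := by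
  let S : Subalgebra F K :=
    { carrier := {k | ∃ k', ∀ x, a (k * x) = k' * a x}
      mul_mem' := by
        rintro k l ⟨k', hk⟩ ⟨l', hl⟩
        exact ⟨k' * l', fun x => by rw [mul_assoc, hk, hl, mul_assoc]⟩
      add_mem' := by
        rintro k l ⟨k', hk⟩ ⟨l', hl⟩
        exact ⟨k' + l', fun x => by rw [add_mul, map_add, hk, hl, add_mul]⟩
      algebraMap_mem' := fun r => ⟨algebraMap F K r, fun x => by
        rw [← Algebra.smul_def, ← Algebra.smul_def, map_smul]⟩ }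
  have h1 : S = ⊤ := fld_top hp ht ⟨t', h⟩
  intro k
  have : k ∈ S := h1 ▸ Algebra.mem_top
  exact this

theorem gal_eq_one (hp : (finrank F K).Prime) (hodd : Odd (finrank F K)) {σ : K ≃ₐ[F] K} {t : K}
    (ht : t ∉ (algebraMap F K).range) (hN : Algebra.norm F t = 1) {c : F} (h : σ t = c • t) :
    σ = 1 := by
  classical
  by_contra hσ
  have := Fact.mk hp
  have ht0 : t ≠ 0 := by rintro rfl; exact ht (zero_mem _)
  have hord : orderOf σ = finrank F K := by
    have h2 := orderOf_dvd_natCard σ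
    rw [card_gal] at h2
    exact ((Nat.dvd_prime hp).1 h2).resolve_left fun h3 => hσ (orderOf_eq_one_iff.1 h3)
  have hk : ∀ k : ℕ, (σ ^ k) t = c ^ k • t := fun k => by
    induction k with
    | zero => simp
    | succ k ih => rw [pow_succ', AlgEquiv.mul_apply, ih, map_smul, h, smul_smul, pow_succ]
  have hc1 : c ≠ 1 := by
    rintro rfl
    have h1 : AlgHom.equalizer (σ : K →ₐ[F] K) (AlgHom.id F K) = ⊤ :=
      fld_top hp ht (by simpa [AlgHom.mem_equalizer] using h)
    refine hσ (AlgEquiv.ext fun x => ?_)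
    have h2 : x ∈ AlgHom.equalizer (σ : K →ₐ[F] K) (AlgHom.id F K) := h1 ▸ Algebra.mem_top
    simpa [AlgHom.mem_equalizer] using h2
  have hcn : c ^ finrank F K = 1 := by
    have h1 := hk (finrank F K)
    rw [← hord, pow_orderOf_eq_one, hord, AlgEquiv.one_apply] at h1
    exact smul_left_injective F ht0 (h1.symm.trans (one_smul F t).symm)
  have hbij : Function.Bijective fun k : Fin (finrank F K) => σ ^ (k : ℕ) := by
    refine Function.Injective.bijective_of_nat_card_le (fun i j hij => Fin.ext ?_) (by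
      rw [card_gal, Nat.card_fin])
    exact pow_injOn_Iio_orderOf (i.2.trans_eq hord.symm) (j.2.trans_eq hord.symm) hij
  have hN' := Algebra.norm_eq_prod_automorphisms F t
  rw [hN, map_one, ← hbij.prod_comp] at hN'
  simp only [hk, Algebra.smul_def, Finset.prod_mul_distrib, ← map_prod, Finset.prod_pow_eq_pow_sum,
    Finset.prod_const, Finset.card_univ, Fintype.card_fin] at hN'
  obtain ⟨m, hm⟩ := hodd
  have hs : ∑ i : Fin (finrank F K), (i : ℕ) = finrank F K * m := by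
    rw [Fin.sum_univ_eq_sum_range (fun i => i), Finset.sum_range_id, hm, Nat.add_sub_cancel,
      mul_left_comm, Nat.mul_div_cancel_left _ two_pos]
  rw [hs, pow_mul, hcn, one_pow, map_one, one_mul] at hN'
  have hz : IsPrimitiveRoot c (finrank F K) := by
    rw [← orderOf_eq_prime hcn hc1]
    exact IsPrimitiveRoot.orderOf c
  have : NeZero (finrank F K) := ⟨hp.ne_zero⟩
  obtain ⟨i, -, hi⟩ := (hz.map_of_injective (algebraMap F K).injective).eq_pow_of_pow_eq_one hN'.symm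
  exact ht ⟨c ^ i, by rw [map_pow, hi]⟩

theorem scalar_of_fix {a : K ≃ₗ[F] K} (h : ∀ x : Pts F K, a • x = x) :
    ∃ c : F, c ≠ 0 ∧ ∀ x, a x = c • x := by
  obtain ⟨c, hc⟩ := LinearMap.exists_eq_smul_id_of_forall_notLinearIndependent
    (f := (a : K →ₗ[F] K)) (fun v hv => by
      have hv0 : v ≠ 0 := hv.ne_zero 0
      have h1 : a • (F ∙ v) = F ∙ v :=
        congrArg Subtype.val (h ⟨F ∙ v, finrank_span_singleton hv0⟩)
      obtain ⟨d, hd⟩ := Submodule.mem_span_singleton.1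
        (apply_mem_of_smul_eq h1 (Submodule.mem_span_singleton_self v))
      have := (LinearIndependent.pair_iff.1 hv d (-1) (by simp [hd])).2
      simp at this)
  have h1 : ∀ x, a x = c • x := fun x => by simpa using LinearMap.congr_fun hc x
  refine ⟨c, ?_, h1⟩
  rintro rfl
  exact one_ne_zero (a.injective (by rw [h1, zero_smul, map_zero]) : (1 : K) = 0)

theorem phi_eq_one_iff {a : K ≃ₗ[F] K} : phi F K a = 1 ↔ ∃ c : F, c ≠ 0 ∧ ∀ x, a x = c • x := by
  refine ⟨fun h => scalar_of_fix fun x => by rw [← phi_apply, h]; rfl, ?_⟩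
  rintro ⟨c, -, hc⟩
  ext x : 2
  exact smul_eq_of_le fun v hv => by rw [hc]; exact Submodule.smul_mem _ c hv

theorem mem_range_of_fix {a : K ≃ₗ[F] K} {t : K} (h : ∀ x, a x = t * x) {x : Submodule F K}
    (hx : finrank F x = 1) (hf : a • x = x) : t ∈ (algebraMap F K).range := by
  obtain ⟨v, hv, rfl⟩ := exists_of_rk (F := F) (x := x) (by rw [lin_rk, hx])
  obtain ⟨d, hd⟩ := Submodule.mem_span_singleton.1
    (apply_mem_of_smul_eq hf (Submodule.mem_span_singleton_self v))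
  rw [h, Algebra.smul_def] at hd
  exact ⟨d, mul_right_cancel₀ hv hd⟩

theorem fix_of_mem_range {a : K ≃ₗ[F] K} {t : K} (h : ∀ x, a x = t * x)
    (ht : t ∈ (algebraMap F K).range) (U : Submodule F K) : a • U = U := by
  obtain ⟨c, rfl⟩ := ht
  exact smul_eq_of_le fun v hv => by
    rw [h, ← Algebra.smul_def]; exact Submodule.smul_mem _ c hv

theorem fld_root {G : Type*} [Group G] [Finite G] [IsCyclic G] {a b : ℕ} (h : Nat.card G = a * b)
    {r : G} (hr : r ^ b = 1) : ∃ c : G, c ^ a = r := by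
  obtain ⟨g, hg⟩ := IsCyclic.exists_monoid_generator (α := G)
  obtain ⟨k, rfl⟩ := hg r
  have ho : orderOf g = Nat.card G := orderOf_eq_card_of_forall_mem_powers hg
  have hb : 0 < b := Nat.pos_of_ne_zero fun e => by
    have := Nat.card_pos (α := G)
    rw [h, e] at this
    exact lt_irrefl _ this
  have h1 : a * b ∣ k * b := by
    rw [← h, ← ho, orderOf_dvd_iff_pow_eq_one, pow_mul]
    exact hr
  obtain ⟨l, rfl⟩ := Nat.dvd_of_mul_dvd_mul_right hb h1
  exact ⟨g ^ l, by rw [← pow_mul, mul_comm]⟩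

theorem fld_norm_smul {n : ℕ} (hn : finrank F K = n) (c : F) (x : K) :
    Algebra.norm F (c • x) = c ^ n * Algebra.norm F x := by
  rw [Algebra.smul_def, map_mul, Algebra.norm_algebraMap, hn]

theorem fld_cls {n : ℕ} (hn : finrank F K = n) {x y : K} (hx : x ≠ 0) (hy : y ≠ 0) {c : F}
    (hc : c ≠ 0) (h : c ^ n * Algebra.norm F x = Algebra.norm F y) :
    ∃ a ∈ T0 F K, a • (F ∙ x) = F ∙ y := by
  have h0 : c • x ≠ 0 := smul_ne_zero hc hx
  have ht : y / c • x ≠ 0 := div_ne_zero hy h0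
  refine ⟨mulE F _ ht, mulE_mem ht ?_, ?_⟩
  · have h1 := map_mul (Algebra.norm F) (y / c • x) (c • x)
    rw [div_mul_cancel₀ _ h0, fld_norm_smul hn, h] at h1
    exact (mul_eq_right₀ (Algebra.norm_ne_zero_iff.2 hy)).1 h1.symm
  · rw [← Submodule.span_singleton_smul_eq hc.isUnit x, smul_span, mulE_apply,
      div_mul_cancel₀ _ h0]

/-- equal classes -/
theorem cls_eq {n e : ℕ} (hn : finrank F K = n) (he : n * e + 1 = Nat.card F) {x y : K}
    (hx : x ≠ 0) (hy : y ≠ 0) (h : Algebra.norm F x ^ e = Algebra.norm F y ^ e) :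
    ∃ a ∈ T0 F K, a • (F ∙ x) = F ∙ y := by
  have hNx : Algebra.norm F x ≠ 0 := Algebra.norm_ne_zero_iff.2 hx
  have hNy : Algebra.norm F y ≠ 0 := Algebra.norm_ne_zero_iff.2 hy
  obtain ⟨c, hc⟩ := fld_root (G := Fˣ) (a := n) (b := e) (by rw [Nat.card_units, ← he]; rfl)
    (r := Units.mk0 _ hNy / Units.mk0 _ hNx) (by
      rw [div_pow, div_eq_one]
      exact Units.ext (by simpa using h.symm))
  refine fld_cls hn hx hy c.ne_zero ?_
  have := congrArg Units.val (eq_div_iff_mul_eq'.1 hc)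
  simpa using this

theorem cls_one {n : ℕ} (hn : finrank F K = n) (hp : n.Prime) (hq : ¬ n ∣ Nat.card F - 1) {x y : K}
    (hx : x ≠ 0) (hy : y ≠ 0) : ∃ a ∈ T0 F K, a • (F ∙ x) = F ∙ y := by
  have hNx : Algebra.norm F x ≠ 0 := Algebra.norm_ne_zero_iff.2 hx
  have hNy : Algebra.norm F y ≠ 0 := Algebra.norm_ne_zero_iff.2 hy
  have hco : (Nat.card Fˣ).Coprime n := by
    rw [Nat.card_units]
    exact ((Nat.Prime.coprime_iff_not_dvd hp).2 hq).symm
  obtain ⟨c, hc⟩ := (powCoprime hco).surjective (Units.mk0 _ hNy / Units.mk0 _ hNx)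
  refine fld_cls hn hx hy c.ne_zero ?_
  have := congrArg Units.val (eq_div_iff_mul_eq'.1 (show c ^ n = _ from hc))
  simpa using this

theorem fld_th (q n : ℕ) (hq : 0 < q) : (q - 1) * th q n + 1 = q ^ n := by
  obtain ⟨r, rfl⟩ : ∃ r, q = r + 1 := ⟨q - 1, by omega⟩
  rw [Nat.add_sub_cancel, mul_comm, th, geom_sum_mul_add]

theorem fld_card_units :
    Nat.card Kˣ = (Nat.card F - 1) * th (Nat.card F) (finrank F K) := by
  rw [Nat.card_units, Module.natCard_eq_pow_finrank (K := F), ← fld_th _ _ Nat.card_pos,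
    Nat.add_sub_cancel]

/-- a Kummer generator -/
theorem exists_theta {n : ℕ} (hn : finrank F K = n) (hp : n.Prime) (hodd : Odd n)
    (hq : n ∣ Nat.card F - 1) : ∃ (ϑ : K) (ζ : F) (σ : K ≃ₐ[F] K), ϑ ≠ 0 ∧ IsPrimitiveRoot ζ n ∧
      σ ϑ = ζ • ϑ ∧ ∀ x : K, x ≠ 0 → ∃ i : ℕ, ∃ a ∈ T0 F K, a • (F ∙ x) = F ∙ ϑ ^ i := by
  have := Fact.mk hp
  have := Fintype.ofFinite F
  have : NeZero n := ⟨hp.ne_zero⟩
  obtain ⟨e, he⟩ := hq
  have he' : n * e + 1 = Nat.card F := by have := Nat.card_pos (α := F); omega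
  obtain ⟨ζ, hζ⟩ := exists_prime_orderOf_dvd_card' (G := Fˣ) n (by rw [Nat.card_units]; exact ⟨e, he⟩)
  have hz : IsPrimitiveRoot (ζ : F) n := by
    rw [IsPrimitiveRoot.coe_units_iff, ← hζ]
    exact IsPrimitiveRoot.orderOf ζ
  obtain ⟨ϑ, hϑ⟩ := fld_root (G := Kˣ) (fld_card_units (F := F))
    (r := Units.map (algebraMap F K : F →* K) ζ) (Units.ext (by
      have h1 := FiniteField.algebraMap_norm_eq_pow_sum F K (algebraMap F K ζ)
      rw [Algebra.norm_algebraMap, hn, hz.pow_eq_one, map_one] at h1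
      simpa [th, hn] using h1.symm))
  have hσ : FiniteField.frobeniusAlgEquivOfAlgebraic F K ϑ = (ζ : F) • (ϑ : K) := by
    have h1 : (ϑ : K) ^ (Nat.card F - 1) = algebraMap F K ζ := by
      simpa using congrArg Units.val hϑ
    rw [FiniteField.coe_frobeniusAlgEquivOfAlgebraic, Algebra.smul_def, ← h1, ← pow_succ,
      Nat.sub_add_cancel Nat.card_pos, Nat.card_eq_fintype_card]
  have hne : (ζ : F) ≠ 1 := hz.ne_one hp.one_lt
  have hpow : ∀ x : K, x ≠ 0 → (Algebra.norm F x ^ e) ^ n = 1 := fun x hx => by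
    rw [← pow_mul, mul_comm, ← he, Nat.card_eq_fintype_card]
    exact FiniteField.pow_card_sub_one_eq_one _ (Algebra.norm_ne_zero_iff.2 hx)
  have h1 : Algebra.norm F (ϑ : K) ^ e ≠ 1 := by
    intro h1
    obtain ⟨a, ⟨t, ht0, hN, ha⟩, h2⟩ := cls_eq hn he' (x := 1) one_ne_zero ϑ.ne_zero
      (by rw [h1, map_one, one_pow])
    rw [smul_span, ha, mul_one] at h2
    obtain ⟨c, rfl⟩ := Submodule.mem_span_singleton.1
      (h2 ▸ Submodule.mem_span_singleton_self t : t ∈ F ∙ (ϑ : K))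
    have h3 : FiniteField.frobeniusAlgEquivOfAlgebraic F K (c • (ϑ : K)) =
        (ζ : F) • c • (ϑ : K) := by rw [map_smul, hσ, smul_comm]
    have h4 : ∀ y : K, y ≠ 0 → y ≠ (ζ : F) • y := fun y hy e' =>
      hne (smul_left_injective F hy (e'.symm.trans (one_smul F y).symm))
    have h5 := gal_eq_one (hn ▸ hp) (hn ▸ hodd) (by
      rintro ⟨d, hd⟩
      rw [← hd, AlgEquiv.commutes, hd] at h3
      exact h4 _ ht0 h3) hN h3
    rw [h5] at h3
    exact h4 _ ht0 h3
  have h2 : IsPrimitiveRoot (Algebra.norm F (ϑ : K) ^ e) n := by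
    rw [← orderOf_eq_prime (hpow _ ϑ.ne_zero) h1]
    exact IsPrimitiveRoot.orderOf _
  refine ⟨ϑ, ζ, _, ϑ.ne_zero, hz, hσ, fun x hx => ?_⟩
  obtain ⟨i, -, hi⟩ := h2.eq_pow_of_pow_eq_one (hpow x hx)
  exact ⟨i, cls_eq hn he' hx (pow_ne_zero i ϑ.ne_zero) (by
    rw [map_pow, ← hi, ← pow_mul, ← pow_mul, mul_comm])⟩

theorem card_T0 : Nat.card (T0 F K) = th (Nat.card F) (finrank F K) := by
  let N : Kˣ →* Fˣ := Units.map (Algebra.norm F (S := K))
  have h1 := N.ker.card_mul_index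
  rw [Subgroup.index_ker, MonoidHom.range_eq_top.2 (FiniteField.unitsMap_norm_surjective F K),
    Subgroup.card_top, fld_card_units (F := F) (K := K), Nat.card_units, mul_comm] at h1
  have h2 : 0 < Nat.card F - 1 := Nat.sub_pos_of_lt Finite.one_lt_card
  have h3 := Nat.eq_of_mul_eq_mul_left h2 h1
  rw [← h3]
  symm
  refine Nat.card_eq_of_bijective (fun t : N.ker => (⟨mulE F (t.1 : K) t.1.ne_zero,
    mulE_mem _ (congrArg Units.val (MonoidHom.mem_ker.1 t.2))⟩ : T0 F K)) ⟨fun s t h => ?_, ?_⟩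
  · have h3 := LinearEquiv.congr_fun (congrArg Subtype.val h) 1
    exact Subtype.ext (Units.ext (by simpa using h3))
  · rintro ⟨a, t, ht0, hN, ha⟩
    exact ⟨⟨Units.mk0 t ht0, MonoidHom.mem_ker.2 (Units.ext hN)⟩,
      Subtype.ext (LinearEquiv.ext fun x => (ha x).symm)⟩

theorem card_pts : Nat.card (Pts F K) = th (Nat.card F) (finrank F K) := by
  exact ncard_rank_one F K

end CfsgLib.Sgr
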