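import Cfsg.Agent.Lib.Sgr.Mat
import Cfsg.Agent.Lib.Sgr.Core
import Cfsg.Agent.Lib.Sgr.Fld

/-!
Singer normaliser, package S2: transitivity on points.
-/

set_option autoImplicit false
set_option linter.unusedSectionVars false

namespace CfsgLib.Sgr

open Module CfsgLib.CK CfsgLib.ClMax

variable {F K : Type*} [Field F] [Finite F] [Field K] [Finite K] [Algebra F K]
  {n : ℕ}

theorem semi_of_poly (hn : finrank F K = n) (h5 : 5 ≤ n) {e : ℕ} (he : n * e + 1 = Nat.card F)
    {a : K ≃ₗ[F] K} {ψ : Polynomial F} (h0 : 0 < ψ.natDegree) (h1 : ψ.natDegree < n)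
    (h : ∀ x : K, ψ.eval (Algebra.norm F (a x) ^ e) = ψ.eval (Algebra.norm F x ^ e)) :
    Semi (a : K →ₗ[F] K) := by
  have := Fintype.ofFinite F
  obtain ⟨f, hp, hf⟩ := FiniteField.card F (ringChar F)
  rw [← Nat.card_eq_fintype_card] at hf
  have := Fact.mk hp
  have : CharP K (ringChar F) := charP_of_injective_algebraMap (algebraMap F K).injective _
  obtain ⟨M, hM⟩ := exists_mat hn (a : K →ₗ[F] K)
  have he0 : 0 < e := Nat.pos_of_ne_zero fun h2 => by
    have := Finite.one_lt_card (α := F)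
    rw [h2] at he
    omega
  have hψ : ψ ≠ 0 := by
    rintro rfl
    simp at h0
  obtain ⟨t, ht, hg⟩ := core (ringChar F) (f := f) (e := e) (k := ψ.natDegree)
    (by rw [Module.natCard_eq_pow_finrank (K := F), hn, hf]) (he.trans hf) he0 h5 M
    (fun i => algebraMap F K (ψ.coeff i)) h0 h1
    ((map_ne_zero _).2 (Polynomial.leadingCoeff_ne_zero.2 hψ)) (fun x => by
      have h2 := congrArg (algebraMap F K) (h x)
      rw [Polynomial.eval_eq_sum_range, Polynomial.eval_eq_sum_range, ← sub_eq_zero, map_sum,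
        map_sum, ← Finset.sum_sub_distrib] at h2
      rw [← hf, map_sum, ← h2]
      refine Finset.sum_congr rfl fun i _ => ?_
      simp only [df, map_mul, map_sub, map_pow, evq_C, hM.evq_sub, evq_NN hn, pow_mul, mul_sub,
        LinearEquiv.coe_coe])
  exact hM.semi hn fun B d hB i j hij => der hB ht hg hij

theorem Hyp.tr {H : Subgroup (K ≃ₗ[F] K)} (h : Hyp H n) :
    Tr H {x : Submodule F K | finrank F x = 1} := by
  classical
  intro x hx y hy
  obtain ⟨u, hu, rfl⟩ := exists_of_rk (F := F) (x := x) (by rw [lin_rk]; exact hx)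
  obtain ⟨v, hv, rfl⟩ := exists_of_rk (F := F) (x := y) (by rw [lin_rk]; exact hy)
  by_cases hq : n ∣ Nat.card F - 1
  swap
  · obtain ⟨a, ha, h1⟩ := cls_one h.rank h.prime hq hu hv
    exact ⟨a, h.T0_le ha, h1⟩
  by_contra hcon
  obtain ⟨e, he⟩ := hq
  have he' : n * e + 1 = Nat.card F := by have := Nat.card_pos (α := F); omega
  have hn0 : 0 < n := h.prime.pos
  let O : K → Prop := fun w => ∃ g ∈ H, g • (F ∙ u) = F ∙ w
  let J : F → Prop := fun z => ∃ w, w ≠ 0 ∧ O w ∧ Algebra.norm F w ^ e = z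
  have hJ : ∀ w, w ≠ 0 → (J (Algebra.norm F w ^ e) ↔ O w) := by
    refine fun w hw => ⟨?_, fun h1 => ⟨w, hw, h1, rfl⟩⟩
    rintro ⟨w', hw', ⟨g, hg, h1⟩, h2⟩
    obtain ⟨a, ha, h3⟩ := cls_eq h.rank he' hw' hw h2
    exact ⟨a * g, mul_mem (h.T0_le ha) hg, by rw [mul_smul, h1, h3]⟩
  let s : Finset F := Polynomial.nthRootsFinset n (1 : F)
  have hs : ∀ w : K, w ≠ 0 → Algebra.norm F w ^ e ∈ s := fun w hw => by
    have := Fintype.ofFinite F
    rw [Polynomial.mem_nthRootsFinset hn0, ← pow_mul, mul_comm, ← he, Nat.card_eq_fintype_card]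
    exact FiniteField.pow_card_sub_one_eq_one _ (Algebra.norm_ne_zero_iff.2 hw)
  let ψ : Polynomial F := Lagrange.interpolate s id fun z => if J z then 1 else 0
  have hψ : ∀ w : K, w ≠ 0 → ψ.eval (Algebra.norm F w ^ e) = if O w then 1 else 0 := fun w hw => by
    have := Lagrange.eval_interpolate_at_node (s := s) (v := id)
      (fun z => if J z then (1 : F) else 0) (Function.injective_id.injOn) (hs w hw)
    exact this.trans (if_congr (hJ w hw) rfl rfl)
  have h1 : ψ.eval (Algebra.norm F u ^ e) = 1 := by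
    rw [hψ u hu, if_pos ⟨1, one_mem _, one_smul _ _⟩]
  have h2 : ψ.eval (Algebra.norm F v ^ e) = 0 := by rw [hψ v hv, if_neg hcon]
  have h0 : 0 < ψ.natDegree := Nat.pos_of_ne_zero fun h3 => by
    rw [Polynomial.eq_C_of_natDegree_eq_zero h3, Polynomial.eval_C] at h1 h2
    exact one_ne_zero (h1.symm.trans h2)
  have hlt : ψ.natDegree < n := by
    have h3 : ψ ≠ 0 := fun h3 => by simp [h3] at h0
    have h4 : s.card ≤ n := (Multiset.toFinset_card_le _).trans (Polynomial.card_nthRoots n 1)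
    exact ((Polynomial.natDegree_lt_iff_degree_lt h3).2
      (Lagrange.degree_interpolate_lt _ Function.injective_id.injOn)).trans_le h4
  obtain ⟨a, ha, hns⟩ := h.ns
  refine hns (semi_of_poly h.rank (by have := h.big; omega) he' h0 hlt fun w => ?_)
  by_cases hw : w = 0
  · rw [hw, map_zero]
  have hw' : a w ≠ 0 := fun e => hw (a.injective (e.trans (map_zero a).symm))
  have h5 : O (a w) ↔ O w := by
    constructor
    · rintro ⟨g, hg, h3⟩
      exact ⟨a⁻¹ * g, mul_mem (inv_mem ha) hg, by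
        rw [mul_smul, h3, ← smul_span, inv_smul_smul]⟩
    · rintro ⟨g, hg, h3⟩
      exact ⟨a * g, mul_mem ha hg, by rw [mul_smul, h3, smul_span]⟩
  rw [hψ w hw, hψ _ hw', h5]

end CfsgLib.Sgr
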