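import Cfsg.Agent.Lib.Sgr.Frb
import Cfsg.Agent.Lib.Sgr.Orb3
import Cfsg.Agent.Lib.Sgr.S2

/-!
Singer normaliser, package BR: the abstract results in terms of `H`.
-/

set_option autoImplicit false

namespace CfsgLib.Sgr

open Module CfsgLib.CK CfsgLib.ClMax

variable {F K : Type*} [Field F] [Finite F] [Field K] [Finite K] [Algebra F K]
  {H : Subgroup (K ≃ₗ[F] K)} {n : ℕ}

/-- the element of `GG H` induced by `a` -/
noncomputable def gg {a : K ≃ₗ[F] K} (ha : a ∈ H) : GG H := ⟨phi F K a, ⟨a, ha, rfl⟩⟩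

omit [Finite F] [Finite K] in
theorem gg_smul {a : K ≃ₗ[F] K} (ha : a ∈ H) (x : Pts F K) : gg ha • x = a • x := rfl

omit [Finite F] [Finite K] in
theorem gg_surj (b : GG H) : ∃ a, ∃ ha : a ∈ H, gg ha = b := by
  obtain ⟨_, a, ha, rfl⟩ := b
  exact ⟨a, ha, rfl⟩

omit [Finite F] [Finite K] in
theorem gg_mem {t : K ≃ₗ[F] K} (ha : t ∈ H) (ht : t ∈ T0 F K) : gg ha ∈ TT H :=
  Subgroup.mem_subgroupOf.2 ⟨t, ht, rfl⟩

omit [Finite F] [Finite K] in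
theorem hit_iff {t : K ≃ₗ[F] K} (ht : t ∈ H) (x y : Pts F K) :
    Hit (gg ht) x y ↔ ∃ a ∈ H, a • y.1 = t • a • x.1 := by
  constructor
  · rintro ⟨b, hb⟩
    obtain ⟨a, ha, rfl⟩ := gg_surj b
    exact ⟨a, ha, congrArg Subtype.val hb⟩
  · rintro ⟨a, ha, e⟩
    exact ⟨gg ha, Subtype.ext e⟩

omit [Finite F] [Finite K] in
theorem ncard_sub2 (x y : Pts F K) :
    (sub2 (GG H) x y).ncard = (orb (Stab H x.1) y.1).ncard := by
  rw [← Set.ncard_image_of_injective _ Subtype.val_injective]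
  congr 1
  ext z
  constructor
  · rintro ⟨w, ⟨b, h1, rfl⟩, rfl⟩
    obtain ⟨a, ha, rfl⟩ := gg_surj b
    exact ⟨a, ⟨ha, congrArg Subtype.val h1⟩, rfl⟩
  · rintro ⟨a, ⟨ha, h1⟩, rfl⟩
    exact ⟨a • y, ⟨gg ha, Subtype.ext h1, rfl⟩, rfl⟩

theorem Hyp.exists_sit (h : Hyp H n) : ∃ g, Sit (Pts F K) (TT H) n (Nat.card (TT H)) g := by
  by_cases hq : n ∣ Nat.card F - 1
  · exact ⟨_, h.sit_n hq⟩
  · exact ⟨_, h.sit_one hq⟩

theorem Hyp.gg_tr (h : Hyp H n) (x y : Pts F K) : ∃ a : GG H, a • x = y := by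
  obtain ⟨a, ha, e⟩ := h.tr x.1 x.2 y.1 y.2
  exact ⟨gg ha, Subtype.ext e⟩

omit [Finite F] [Finite K] in
theorem T0_comm {s t : K ≃ₗ[F] K} (hs : s ∈ T0 F K) (ht : t ∈ T0 F K) : s * t = t * s := by
  obtain ⟨a, -, -, ha⟩ := hs
  obtain ⟨b, -, -, hb⟩ := ht
  ext x
  rw [LinearEquiv.mul_apply, LinearEquiv.mul_apply, ha, hb, hb, ha, mul_left_comm]

theorem Hyp.hit (h : Hyp H n) {x y : Submodule F K} (hx : finrank F x = 1) (hy : finrank F y = 1)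
    (hxy : x ≠ y) {a t : K ≃ₗ[F] K} (ha : a ∈ H) (ht : t ∈ T0 F K) (e : a • y = t • a • x)
    {t' : K ≃ₗ[F] K} (ht' : t' ∈ T0 F K) {z : Submodule F K} (hz : finrank F z = 1)
    (hz' : t' • z ≠ z) : ∃ a' ∈ H, a' • y = t' • a' • x := by
  obtain ⟨g, hs⟩ := h.exists_sit
  have h1 : gg (h.T0_le ht) ≠ 1 := fun e1 => by
    have h2 : t • a • x = a • x :=
      congrArg Subtype.val (show gg (h.T0_le ht) • a • (⟨x, hx⟩ : Pts F K) = a • ⟨x, hx⟩ by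
        rw [e1, one_smul])
    rw [h2] at e
    exact hxy (smul_left_cancel a e).symm
  have h1' : gg (h.T0_le ht') ≠ 1 := fun e1 => hz' (congrArg Subtype.val
    (show gg (h.T0_le ht') • (⟨z, hz⟩ : Pts F K) = ⟨z, hz⟩ by rw [e1, one_smul]))
  exact (hit_iff (h.T0_le ht') ⟨x, hx⟩ ⟨y, hy⟩).1 (hs.hit (gg_mem _ ht) h1 (gg_mem _ ht') h1'
    ((hit_iff (h.T0_le ht) ⟨x, hx⟩ ⟨y, hy⟩).2 ⟨a, ha, e⟩))

theorem Hyp.small (h : Hyp H n) (hq : n ∣ Nat.card F - 1) {x y : Submodule F K}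
    (hx : finrank F x = 1) (hy : finrank F y = 1) (hxy : x ≠ y)
    (hh : ∀ a ∈ H, ∀ t ∈ T0 F K, a • y ≠ t • a • x) : (orb (Stab H x) y).ncard ≤ 2 * n ^ 3 := by
  rw [← ncard_sub2 (H := H) ⟨x, hx⟩ ⟨y, hy⟩]
  refine (h.sit_n hq).small h.gg_tr (fun e => hxy (congrArg Subtype.val e)) fun b hb hh' => ?_
  obtain ⟨t, ht, e⟩ := Subgroup.mem_subgroupOf.1 hb
  have e' : gg (h.T0_le ht) = b := Subtype.ext e
  rw [← e'] at hh'
  obtain ⟨a, ha, e⟩ := (hit_iff _ _ _).1 hh'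
  exact hh a ha t ht e

theorem Hyp.large (h : Hyp H n) (hq : n ∣ Nat.card F - 1) {x y : Submodule F K}
    (hx : finrank F x = 1) (hy : finrank F y = 1) (hxy : x ≠ y) {a t : K ≃ₗ[F] K} (ha : a ∈ H)
    (ht : t ∈ T0 F K) (e : a • y = t • a • x) :
    th (Nat.card F) n < (n + 1) * (orb (Stab H x) y).ncard := by
  have hq2 : 1 < Nat.card F := Finite.one_lt_card
  have hle : n + 1 ≤ Nat.card F := by have := Nat.le_of_dvd (by omega) hq; omega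
  rw [← ncard_sub2 (H := H) ⟨x, hx⟩ ⟨y, hy⟩, ← h.card_n hq]
  exact (h.sit_n hq).large h.gg_tr (num_n hle h.big (h.card_n hq)).2.2.1
    (fun e => hxy (congrArg Subtype.val e)) (gg_mem (h.T0_le ht) ht)
    ((hit_iff (h.T0_le ht) ⟨x, hx⟩ ⟨y, hy⟩).2 ⟨a, ha, e⟩)

theorem Hyp.two_one (h : Hyp H n) (hq : ¬ n ∣ Nat.card F - 1) : (lin F K).Two H ⊥ ⊤ := by
  have tr : ∀ x y : Submodule F K, (lin F K).rk x = 1 → (lin F K).rk y = 1 →
      ∃ s ∈ T0 F K, s • x = y := fun x y hx hy => by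
    obtain ⟨u, hu, rfl⟩ := exists_of_rk hx
    obtain ⟨v, hv, rfl⟩ := exists_of_rk hy
    exact cls_one h.rank h.prime hq hu hv
  refine ⟨bot_le, (lin F K).fx_bot H, (lin F K).fx_top H, fun x y x' y' hx hy hxy hx' hy' hxy' => ?_⟩
  rw [PG.pt_bot_top] at hx hy hx' hy'
  obtain ⟨t, ht, e⟩ := tr x y hx hy
  obtain ⟨t', ht', e'⟩ := tr x' y' hx' hy'
  obtain ⟨a, ha, e1⟩ := h.hit (lin_rk x ▸ hx) (lin_rk y ▸ hy) hxy (one_mem H) ht
    (by rw [one_smul, one_smul, e]) ht' (lin_rk x' ▸ hx') (by rw [e']; exact hxy'.symm)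
  obtain ⟨s, hs, e2⟩ := tr (a • x) x' (by rw [PG.rk_smul]; exact hx) hx'
  refine ⟨s * a, mul_mem (h.T0_le hs) ha, by rw [mul_smul, e2], ?_⟩
  rw [mul_smul, e1, ← mul_smul s, T0_comm hs ht', mul_smul, e2, e']

end CfsgLib.Sgr
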