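import Cfsg.Agent.Lib.Sgr.GDefs

/-!
Singer normaliser, package GRP: no proper normal subgroup contains `T`.
-/

set_option autoImplicit false

namespace CfsgLib.Sgr

open Cfsg CfsgLib.Char
open scoped ComplexConjugate

variable {G : Type*} [Group G] [Finite G] {Ω : Type*} [MulAction G Ω] [Finite Ω] {T : Subgroup G}
  {n m g : ℕ}

/-- a subgroup in which `T` is self-normalising equals `T` (counting fixed points) -/
theorem Sit.eq_of_inf (h : Sit Ω T n m g) {K : Subgroup G} (hK : T ≤ K)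
    (hN : K ⊓ Subgroup.normalizer (T : Set G) ≤ T) : K = T := by
  classical
  by_contra hne
  obtain ⟨a, ha, haT⟩ : ∃ a ∈ K, a ∉ T := by
    by_contra hc
    push Not at hc
    exact hne (le_antisymm hc hK)
  have key : ∀ c ∈ K, ∀ t ∈ T, t ≠ 1 → c * t * c⁻¹ ∈ T → c ∈ T := fun c hc t ht h1 h2 =>
    hN ⟨hc, h.cc.ti ht h1 h2⟩
  have := Fintype.ofFinite K
  have := Fintype.ofFinite T
  have := Fintype.ofFinite (K ⧸ T.subgroupOf K)
  have hm : Fintype.card T = m := by rw [← Nat.card_eq_fintype_card, h.card_T]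
  have hμ : Fintype.card K = Fintype.card (K ⧸ T.subgroupOf K) * m := by
    rw [← Nat.card_eq_fintype_card, Subgroup.card_eq_card_quotient_mul_card_subgroup (T.subgroupOf K),
      Nat.card_eq_fintype_card, Nat.card_congr (Subgroup.subgroupOfEquivOfLe hK).toEquiv, h.card_T]
  have h1 : m * m ≤ Fintype.card K := by
    have := Fintype.card_le_of_injective (fun p : T × T => (⟨p.1 * a * p.2,
      K.mul_mem (K.mul_mem (hK p.1.2) ha) (hK p.2.2)⟩ : K)) fun p q e => by
        have e1 : (p.1 : G) * a * p.2 = q.1 * a * q.2 := congrArg Subtype.val e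
        have e2 : a * (p.2 * (q.2 : G)⁻¹) * a⁻¹ = (p.1 : G)⁻¹ * q.1 := by
          calc a * (p.2 * (q.2 : G)⁻¹) * a⁻¹ = (p.1 : G)⁻¹ * (p.1 * a * p.2) * (q.2 : G)⁻¹ * a⁻¹ := by group
            _ = _ := by rw [e1]; group
        have e3 : (p.2 : G) * (q.2 : G)⁻¹ = 1 := by
          by_contra hc
          exact haT (key a ha _ (T.mul_mem p.2.2 (T.inv_mem q.2.2)) hc
            (e2 ▸ T.mul_mem (T.inv_mem p.1.2) q.1.2))
        rw [e3, mul_one, mul_inv_cancel, eq_comm, inv_mul_eq_one] at e2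
        exact Prod.ext (Subtype.ext e2) (Subtype.ext (mul_inv_eq_one.1 e3))
    rwa [Fintype.card_prod, hm] at this
  let φ : (K ⧸ T.subgroupOf K) × {t : T // t ≠ 1} → K := fun p =>
    p.1.out * ⟨p.2.1, hK p.2.1.2⟩ * p.1.out⁻¹
  have hφ : ∀ p, (φ p : G) = p.1.out * p.2.1 * (p.1.out : G)⁻¹ := fun p => rfl
  have t1 : ∀ t : {t : T // t ≠ 1}, (t.1 : G) ≠ 1 := fun t e => t.2 (Subtype.ext e)
  have φi : Function.Injective φ := fun p q e => by
    have e1 : (p.1.out : G) * p.2.1 * (p.1.out : G)⁻¹ = q.1.out * q.2.1 * (q.1.out : G)⁻¹ :=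
      congrArg Subtype.val e
    have e2 : p.1 = q.1 := by
      rw [← QuotientGroup.out_eq' p.1, ← QuotientGroup.out_eq' q.1, QuotientGroup.eq]
      refine key _ (p.1.out⁻¹ * q.1.out).2 _ q.2.1.2 (t1 q.2) ?_
      have : ((p.1.out⁻¹ * q.1.out : K) : G) * q.2.1 * ((p.1.out⁻¹ * q.1.out : K) : G)⁻¹ = p.2.1 := by
        push_cast
        calc (p.1.out : G)⁻¹ * q.1.out * q.2.1 * ((p.1.out : G)⁻¹ * q.1.out)⁻¹
            = (p.1.out : G)⁻¹ * (q.1.out * q.2.1 * (q.1.out : G)⁻¹) * p.1.out := by group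
          _ = _ := by rw [← e1]; group
      exact this ▸ p.2.1.2
    rw [e2] at e1
    exact Prod.ext e2 (Subtype.ext (Subtype.ext (mul_left_cancel (mul_right_cancel e1))))
  let f : K → ℕ := fun c => Nat.card (MulAction.fixedBy Ω (c : G))
  set U := Finset.univ.image φ with hU
  have cU : U.card + Fintype.card (K ⧸ T.subgroupOf K) = Fintype.card K := by
    rw [hU, Finset.card_image_of_injective _ φi, Finset.card_univ, Fintype.card_prod, hμ, ← hm,
      Fintype.card_subtype_compl, Fintype.card_subtype_eq, ← Nat.mul_succ, Nat.succ_eq_add_one,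
      Nat.sub_add_cancel Fintype.card_pos]
  have U1 : (1 : K) ∉ U := fun e => by
    obtain ⟨p, -, e⟩ := Finset.mem_image.1 e
    have e1 := hφ p
    rw [e] at e1
    exact t1 p.2 (by simpa using e1.symm)
  have U0 : ∑ c ∈ U, f c = 0 := Finset.sum_eq_zero fun c hc => by
    obtain ⟨p, -, rfl⟩ := Finset.mem_image.1 hc
    refine Nat.card_eq_zero.2 (Or.inl ⟨fun x => h.free _ p.2.1.2 (t1 p.2) ((p.1.out : G)⁻¹ • x.1) ?_⟩)
    have e : ((p.1.out : G) * p.2.1 * (p.1.out : G)⁻¹) • x.1 = x.1 := x.2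
    rw [mul_smul, mul_smul] at e
    exact eq_inv_smul_iff.2 e
  have hR : ∑ c ∈ (insert 1 U)ᶜ, (f c + (g + 1)) ≤ ∑ c ∈ (insert 1 U)ᶜ, m :=
    Finset.sum_le_sum fun c hc => h.fix c fun e =>
      Finset.mem_compl.1 hc (Finset.mem_insert.2 (Or.inl (Subtype.ext e)))
  rw [Finset.sum_add_distrib, Finset.sum_const, Finset.sum_const, smul_eq_mul, smul_eq_mul] at hR
  have cR := Finset.card_add_card_compl (insert 1 U)
  rw [Finset.card_insert_of_notMem U1] at cR
  have hB : Fintype.card K ≤ ∑ c, f c := by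
    have := Fintype.ofFinite (Quotient (MulAction.orbitRel K Ω))
    have := fun c : K => Fintype.ofFinite (MulAction.fixedBy Ω c)
    have hb := MulAction.sum_card_fixedBy_eq_card_orbits_mul_card_group K Ω
    have : Nonempty Ω := (Nat.card_pos_iff.1 (by
      rw [h.card_Ω]; exact Nat.mul_pos h.g_pos (by have := h.big; omega))).1
    have : Nonempty (Quotient (MulAction.orbitRel K Ω)) := this.map (Quotient.mk _)
    simp only [← Nat.card_eq_fintype_card (α := MulAction.fixedBy Ω _)] at hb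
    exact (Nat.le_mul_of_pos_left _ Fintype.card_pos).trans hb.ge
  rw [← Finset.sum_add_sum_compl (insert 1 U), Finset.sum_insert U1, U0] at hB
  have f1 : f 1 = g * m := by
    rw [← h.card_Ω]
    change Nat.card (MulAction.fixedBy Ω (1 : G)) = _
    rw [MulAction.fixedBy_one_eq_univ, Nat.card_univ]
  have hg : g + 1 < m := by
    have := h.big
    have := h.g_pos
    have := h.prime.pos
    nlinarith [Nat.mul_le_mul_left g h.prime.pos]
  rw [f1] at hB
  generalize ∑ c ∈ (insert 1 U)ᶜ, f c = s at hR hB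
  generalize (insert 1 U)ᶜ.card = r at hR cR
  generalize Fintype.card (K ⧸ T.subgroupOf K) = μ at hμ cU
  obtain rfl : μ = r + 1 := by omega
  rw [hμ] at hB h1
  have h2 : m ≤ r + 1 := Nat.le_of_mul_le_mul_right h1 (by omega)
  nlinarith

/-- Frattini -/
theorem IsCC.sup_eq_top (h : IsCC T) (hT : T ≠ ⊥) {K : Subgroup G} (hK : K.Normal) (hle : T ≤ K) :
    K ⊔ Subgroup.normalizer (T : Set G) = ⊤ := by
  obtain ⟨l, hl, hd⟩ := Nat.exists_prime_and_dvd (n := Nat.card T) fun e => hT (Subgroup.card_eq_one.1 e)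
  have := Fact.mk hl
  obtain ⟨x, hx⟩ := exists_prime_orderOf_dvd_card' l hd
  have x1 : (x : G) ≠ 1 := fun e => hl.ne_one (by rw [← hx, orderOf_eq_one_iff]; exact Subtype.ext e)
  obtain ⟨P, hP⟩ := IsPGroup.exists_le_sylow (p := l) (P := Subgroup.zpowers (x : G))
    (IsPGroup.of_card (n := 1) (by rw [Nat.card_zpowers, Subgroup.orderOf_coe, hx, pow_one]))
  have xP : (x : G) ∈ P := hP (Subgroup.mem_zpowers _)
  have : Nontrivial P := ⟨⟨x, xP⟩, 1, fun e => x1 (congrArg Subtype.val e)⟩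
  obtain ⟨z, z1⟩ := @exists_ne _ P.isPGroup'.center_nontrivial 1
  have zc : ∀ y : P, y * z.1 = z.1 * y := Subgroup.mem_center_iff.1 z.2
  have zT : (z.1 : G) ∈ T := h.mem x.2 x1 (congrArg Subtype.val (zc ⟨x, xP⟩)).symm
  have PT : (P : Subgroup G) ≤ T := fun y hy =>
    h.mem zT (fun e => z1 (Subtype.ext (Subtype.ext e))) (congrArg Subtype.val (zc ⟨y, hy⟩))
  rw [eq_top_iff, ← Sylow.normalizer_sup_eq_top' P (PT.trans hle), sup_comm]
  refine sup_le_sup_left (fun a ha => ?_) _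
  exact h.ti x.2 x1 (PT ((Subgroup.mem_normalizer_iff (H := (P : Subgroup G)).1 ha x).1 xP))

theorem Sit.gen (h : Sit Ω T n m g) : Gen T := by
  intro K hK hle
  have h1 : T ≤ K ⊓ Subgroup.normalizer (T : Set G) := le_inf hle Subgroup.le_normalizer
  have h2 := Subgroup.relIndex_mul_relIndex _ _ _ h1 inf_le_right
  rw [h.idx] at h2
  rcases (Nat.dvd_prime h.prime).1 (Dvd.intro _ h2) with e | e
  · exact (h.not_normal (h.eq_of_inf hle (Subgroup.relIndex_eq_one.1 e) ▸ hK)).elim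
  · rw [e, Nat.mul_eq_left h.prime.ne_zero, Subgroup.relIndex_eq_one] at h2
    have h3 := h.cc.sup_eq_top (fun e => by
      have := h.card_T
      have := h.big
      rw [e, Subgroup.card_bot] at *
      omega) hK hle
    rwa [sup_eq_left.2 (h2.trans inf_le_left)] at h3

end CfsgLib.Sgr
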