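import Cfsg.Agent.Lib.Sgr.Leo
import Cfsg.Agent.Lib.Sgr.Grp

/-!
Singer normaliser, package EXC: no exceptional character occurs in the permutation character.
-/

set_option autoImplicit false

namespace CfsgLib.Sgr

open Cfsg CfsgLib.Char
open scoped ComplexConjugate

variable {G : Type*} [Group G] [Fintype G] {T : Subgroup G}

theorem exc_fourier {A : Type*} [Group A] [Fintype A] [IsMulCommutative A] {f : A → ℂ} {a : ℂ}
    (h : ∀ ν : A →* ℂˣ, ν ≠ 1 → classInner f (fun u => (ν u : ℂ)) = a) {t : A} (ht : t ≠ 1) :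
    f t = classInner f (fun _ => 1) - a := by
  classical
  have h1 := sum_irr_one_mul_of_ne_one ht
  simp only [irr_one_eq_one_of_comm (Subtype.prop _), one_mul] at h1
  rw [classFun_apply_eq_sum (isClassFunction_of_comm f),
    ← Finset.add_sum_erase _ _ (Finset.mem_univ (irrOne A)),
    Finset.sum_congr rfl (g := fun ψ : IrrCharacter A => a * (ψ : A → ℂ) t) fun ψ hψ => by
      obtain ⟨ν, hν⟩ := exists_unitsHom_of_one_eq_one (irr_isCharacter ψ)
        (irr_one_eq_one_of_comm ψ.2)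
      rw [hν, h ν fun e => Finset.ne_of_mem_erase hψ (Subtype.ext (by rw [hν, e]; rfl))],
    ← Finset.mul_sum]
  rw [← Finset.add_sum_erase _ _ (Finset.mem_univ (irrOne A))] at h1
  simp only [irrOne_coe] at h1 ⊢
  linear_combination a * h1

open CfsgLib.Exc in

/-- the exceptional characters -/
theorem exc_family (hcc : IsCC T) : ∃ S : Finset (G → ℂ), (∀ μ ∈ S, IsIrrCharacter G μ) ∧
    Nat.card T ≤ T.relIndex (Subgroup.normalizer (T : Set G)) * S.card + 1 ∧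
    (∀ μ ∈ S, ∀ μ' ∈ S, μ 1 = μ' 1) ∧
    (∀ θ : G → ℂ, IsClassFunction G θ → Cst T θ → ∀ μ ∈ S, ∀ μ' ∈ S,
      classInner θ μ = classInner θ μ') ∧
    ∀ χ, IsIrrCharacter G χ → χ ∉ S → Cst T χ := by
  classical
  by_cases hT : T = ⊥
  · refine ⟨∅, by simp, by simp [hT], by simp, by simp, fun χ _ _ t ht h1 => ?_⟩
    exact absurd (Subgroup.mem_bot.1 (hT ▸ ht)) h1
  obtain ⟨⟨t0, ht0⟩, ht01⟩ := (Subgroup.ne_bot_iff_exists_ne_one).1 hT
  have ht01 : t0 ≠ 1 := fun e => ht01 (Subtype.ext e)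
  set N := Subgroup.normalizer (T : Set G) with hN
  let C := T.subgroupOf N
  have hPC : C ≤ C := le_rfl
  have hcent : ∀ u ∈ C, ∀ c ∈ C, c * u = u * c := fun u hu c hc => Subtype.ext (hcc.comm hc hu)
  have hfpf : ∀ u ∈ C, u ≠ 1 → ∀ g, g * u = u * g → g ∈ C := fun u hu h1 g hg =>
    hcc.mem (a := g) hu (fun h => h1 (Subtype.ext h)) (congrArg Subtype.val hg)
  have hcP : Nat.card C = Nat.card T :=
    Nat.card_congr (Subgroup.subgroupOfEquivOfLe Subgroup.le_normalizer).toEquiv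
  have hm : C.relIndex C = 1 := Subgroup.relIndex_self C
  have hcop : (Nat.card C).Coprime (C.relIndex C) := by rw [hm]; exact Nat.coprime_one_right _
  have : IsMulCommutative C := ⟨⟨fun a b => Subtype.ext (hcent _ b.2 _ a.2)⟩⟩
  have hcard : Nat.card (C →* ℂˣ) = Nat.card T := by
    let _ : CommGroup C := { (inferInstance : Group C) with mul_comm := mul_comm' }
    rw [CommGroup.card_monoidHom_of_hasEnoughRootsOfUnity, hcP]
  have hT1 : 1 < Nat.card T := (Subgroup.one_lt_card_iff_ne_bot T).2 hT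
  have : Finite (C →* ℂˣ) := Nat.finite_of_card_ne_zero (by rw [hcard]; omega)
  have := Fintype.ofFinite (C →* ℂˣ)
  have hS : (Finset.univ.erase (1 : C →* ℂˣ)).card + 1 = Nat.card T := by
    rw [Finset.card_erase_add_one (Finset.mem_univ _), Finset.card_univ,
      ← Nat.card_eq_fintype_card, hcard]
  have ho : Over hPC (fun _ => 1) 1 := fun u => by simp
  obtain ⟨φ, -, hφ, -, hφc⟩ := exists_family hPC hcent hfpf hcop isIrr_one ho
  have hφν : ∀ ν, φ ν = fun u => (ν u : ℂ) := fun ν => funext fun u => by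
    have := (hφ ν).2 u
    rwa [irr_one_eq_one_of_comm (hφ ν).1, one_mul] at this
  set X := (Finset.univ.erase (1 : C →* ℂˣ)).image fun ν => indFun C (φ ν) with hX
  have hXc : (Finset.univ.erase (1 : C →* ℂˣ)).card ≤ C.index * X.card := hφc _ (by simp)
  have hXm : ∀ Φ ∈ X, ∃ ν, ν ≠ 1 ∧ Φ = indFun C (φ ν) := fun Φ hΦ => by
    obtain ⟨ν, hν, rfl⟩ := Finset.mem_image.1 hΦ
    exact ⟨ν, Finset.ne_of_mem_erase hν, rfl⟩
  have hXi : ∀ Φ ∈ X, IsIrrCharacter N Φ := fun Φ hΦ => by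
    obtain ⟨ν, hν, rfl⟩ := hXm Φ hΦ
    exact (hφ ν).2.isIrr_indFun hfpf (hφ ν).1 hν
  obtain ⟨Φ0, hΦ0⟩ : X.Nonempty := Finset.card_pos.1 (Nat.pos_of_ne_zero fun e => by
    rw [e] at hXc; omega)
  obtain ⟨ν0, hν0, e0⟩ := hXm Φ0 hΦ0
  let D : Set G := {c | c ∈ T ∧ c ≠ 1}
  have hTI : ∀ g : G, g ∉ N → ∀ t ∈ D, g * t * g⁻¹ ∈ D → t = 1 := fun g hg t ht ht' =>
    absurd (hcc.ti ht.1 ht.2 ht'.1) hg
  have hvan : ∀ Φ ∈ X, ∀ x : N, (x : G) ∉ D → (Φ - Φ0) x = 0 := by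
    intro Φ hΦ x hx
    obtain ⟨ν, -, rfl⟩ := hXm Φ hΦ
    rw [e0, ← indFun_sub]
    refine indFun_eq_zero_of_forall C _ fun y hy => ?_
    have hxC : x ∈ C := by simpa [mul_assoc] using (inferInstance : C.Normal).conj_mem _ hy y⁻¹
    have h1 : x = 1 := by
      by_contra h'
      exact hx ⟨hxC, fun e => h' (Subtype.ext e)⟩
    have h2 : (⟨y * x * y⁻¹, hy⟩ : C) = 1 := Subtype.ext (by simp [h1])
    rw [h2, Pi.sub_apply, irr_one_eq_one_of_comm (hφ ν).1, irr_one_eq_one_of_comm (hφ ν0).1,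
      sub_self]
  have hcl : ∀ Φ ∈ X, IsClassFunction N (Φ - Φ0) := fun Φ hΦ =>
    isClassFunction_sub (isClassFunction_of_isIrr (hXi Φ hΦ))
      (isClassFunction_of_isIrr (hXi Φ0 hΦ0))
  have hone : ∀ Φ ∈ X, (Φ - Φ0) 1 = 0 := fun Φ hΦ => hvan Φ hΦ 1 fun h => h.2 rfl
  have hgram : ∀ Φ ∈ X, ∀ Ψ ∈ X, Φ ≠ Φ0 → Ψ ≠ Φ0 →
      classInner (indFun N (Φ - Φ0)) (indFun N (Ψ - Φ0)) = classInner Φ Ψ + 1 := by
    intro Φ hΦ Ψ hΨ h1 h2
    rw [classInner_indFun_of_ti N D hTI (hcl Ψ hΨ) (hvan Φ hΦ) (hvan Ψ hΨ) (hone Φ hΦ),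
      classInner_sub_left, classInner_sub_right, classInner_sub_right,
      classInner_irr_of_ne (hXi Φ hΦ) (hXi Φ0 hΦ0) h1,
      classInner_irr_of_ne (hXi Φ0 hΦ0) (hXi Ψ hΨ) h2.symm, classInner_irr_self (hXi Φ0 hΦ0)]
    ring
  obtain ⟨ε, hε, μ, hμ, hinj, hτ⟩ := exists_exceptional (G := G) (⟨Φ0, hΦ0⟩ : X)
    (fun Φ => indFun N (Φ.1 - Φ0)) (by simp only [sub_self]; exact indFun_zero N)
    (fun Φ => isGenChar_indFun N (isGenChar_sub (isGenChar_of_isIrr (hXi _ Φ.2))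
      (isGenChar_of_isIrr (hXi Φ0 hΦ0))))
    (fun Φ => by rw [indFun_one, hone _ Φ.2, mul_zero])
    (fun Φ h => by
      rw [hgram _ Φ.2 _ Φ.2 (fun e => h (Subtype.ext e)) (fun e => h (Subtype.ext e)),
        classInner_irr_self (hXi _ Φ.2)]
      norm_num)
    (fun Φ Ψ h h' h'' => by
      rw [hgram _ Φ.2 _ Ψ.2 (fun e => h (Subtype.ext e)) (fun e => h' (Subtype.ext e)),
        classInner_irr_of_ne (hXi _ Φ.2) (hXi _ Ψ.2) (fun e => h'' (Subtype.ext e)), zero_add])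
  have hε0 : ε ≠ 0 := by rcases hε with rfl | rfl <;> norm_num
  have hres : ∀ θ : G → ℂ, IsClassFunction G θ → ∀ ν (hν : indFun C (φ ν) ∈ X),
      conj ε * (classInner θ (μ ⟨_, hν⟩) - classInner θ (μ ⟨Φ0, hΦ0⟩)) =
        classInner (fun c : C => θ (c : N)) (fun u => (ν u : ℂ)) -
          classInner (fun c : C => θ (c : N)) (fun u => (ν0 u : ℂ)) := by
    intro θ hθ ν hν
    have hθN := isClassFunction_restrict N hθ
    rw [← classInner_sub_right, ← classInner_smul_right, ← hτ, classInner_indFun_right N _ hθ,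
      classInner_sub_right, e0, classInner_indFun_right C _ hθN, classInner_indFun_right C _ hθN,
      hφν, hφν]
  refine ⟨Finset.univ.image μ, fun χ hχ => ?_, ?_, fun χ hχ ψ hψ => ?_,
    fun θ hθ hc χ hχ ψ hψ => ?_, fun χ hχ hχS => ?_⟩
  · obtain ⟨Φ, -, rfl⟩ := Finset.mem_image.1 hχ
    exact hμ Φ
  · rw [Finset.card_image_of_injective _ hinj, Finset.card_univ, Fintype.card_coe]
    show _ ≤ C.index * X.card + 1
    omega
  · have key : ∀ Φ : X, μ Φ 1 = μ ⟨Φ0, hΦ0⟩ 1 := fun Φ => by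
      have h1 := congrFun (hτ Φ) 1
      rw [indFun_one, hone _ Φ.2, mul_zero, Pi.smul_apply, smul_eq_mul, Pi.sub_apply] at h1
      exact sub_eq_zero.1 ((mul_eq_zero.1 h1.symm).resolve_left hε0)
    obtain ⟨Φ, -, rfl⟩ := Finset.mem_image.1 hχ
    obtain ⟨Ψ, -, rfl⟩ := Finset.mem_image.1 hψ
    rw [key Φ, key Ψ]
  · have hb : ∀ c : C, c ≠ 1 → (fun c : C => θ (c : N)) c = θ t0 := fun c h1 =>
      hc _ c.2 (fun e => h1 (Subtype.ext (Subtype.ext e))) t0 ht0 ht01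
    have h3 : ∀ ν : C →* ℂˣ, ν ≠ 1 → (Nat.card C : ℂ) *
        classInner (fun c : C => θ (c : N)) (fun u => (ν u : ℂ)) = θ 1 - θ t0 := fun ν hν => by
      rw [leo_inner hb, sum_irr_eq_zero (isIrr_unitsHom ν)
        fun e => hν (MonoidHom.ext fun u => Units.ext (congrFun e u))]
      simp
    have key : ∀ Φ : X, classInner θ (μ Φ) = classInner θ (μ ⟨Φ0, hΦ0⟩) := by
      rintro ⟨Φ, hΦ⟩
      obtain ⟨ν, hν, rfl⟩ := hXm Φ hΦ
      have h1 := hres θ hθ ν hΦ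
      rw [mul_left_cancel₀ natCard_ne_zero ((h3 ν hν).trans (h3 ν0 hν0).symm), sub_self] at h1
      exact sub_eq_zero.1 ((mul_eq_zero.1 h1).resolve_left (by simpa using hε0))
    obtain ⟨Φ, -, rfl⟩ := Finset.mem_image.1 hχ
    obtain ⟨Ψ, -, rfl⟩ := Finset.mem_image.1 hψ
    rw [key Φ, key Ψ]
  · have h0 : ∀ Φ, classInner χ (μ Φ) = 0 := fun Φ => classInner_irr_of_ne hχ (hμ Φ)
      fun e => hχS (Finset.mem_image.2 ⟨Φ, Finset.mem_univ _, e.symm⟩)
    have h1 : ∀ ν : C →* ℂˣ, ν ≠ 1 → classInner (fun c : C => χ (c : N)) (fun u => (ν u : ℂ)) =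
        classInner (fun c : C => χ (c : N)) (fun u => (ν0 u : ℂ)) := fun ν hν => by
      have h2 := hres χ (isClassFunction_of_isIrr hχ) ν
        (Finset.mem_image.2 ⟨ν, by simpa using hν, rfl⟩)
      rw [h0, h0, sub_self, mul_zero] at h2
      exact sub_eq_zero.1 h2.symm
    intro t ht h2 t' ht' h2'
    exact (exc_fourier h1 (t := ⟨⟨t, Subgroup.le_normalizer ht⟩, ht⟩)
      fun e => h2 (congrArg (fun c : C => ((c : N) : G)) e)).trans
      (exc_fourier h1 (t := ⟨⟨t', Subgroup.le_normalizer ht'⟩, ht'⟩)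
        fun e => h2' (congrArg (fun c : C => ((c : N) : G)) e)).symm

variable {Ω : Type*} [MulAction G Ω] [Finite Ω] {n m g : ℕ}

omit [Fintype G] [Finite Ω] in
theorem Sit.perm_eq_zero (h : Sit Ω T n m g) {t : G} (ht : t ∈ T) (h1 : t ≠ 1) : perm Ω t = 0 := by
  have : IsEmpty (MulAction.fixedBy Ω t) := ⟨fun x => h.free t ht h1 x x.2⟩
  simp [perm]

omit [Fintype G] [Finite Ω] in
theorem Sit.perm_one (h : Sit Ω T n m g) : perm Ω (1 : G) = ((g * m : ℕ) : ℂ) := by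
  rw [← h.card_Ω]
  simp [perm]

omit [Fintype G] in
theorem isCharacter_perm' : IsCharacter G (perm Ω) := isCharacter_perm Ω

theorem Sit.cst (h : Sit Ω T n m g) {χ : G → ℂ} (hχ : IsIrrCharacter G χ)
    (hπ : classInner (perm Ω) χ ≠ 0) : Cst T χ := by
  classical
  obtain ⟨S, h1, h2, h3, h4, h5⟩ := exc_family h.cc
  by_cases hS : χ ∈ S
  swap
  · exact h5 χ hχ hS
  by_cases hχ1 : χ = fun _ => 1
  · intro t _ _ t' _ _
    rw [hχ1]
  exfalso
  obtain ⟨x, hx0, hx⟩ := exists_irr_one_eq_nat hχ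
  have hπc : IsCharacter G (perm Ω) := isCharacter_perm'
  have h6 := h4 (perm Ω) (isClassFunction_of_isCharacter hπc) fun t ht h1 t' ht' h1' => by
    rw [h.perm_eq_zero ht h1, h.perm_eq_zero ht' h1']
  obtain ⟨k, hk, hk'⟩ := exists_char_eq_sum_nat hπc
  choose d hd0 hd using fun ψ : IrrCharacter G => exists_irr_one_eq_nat ψ.2
  have h7 : g * m = ∑ ψ, k ψ * d ψ := by
    have := congrFun hk' 1
    rw [h.perm_one, Finset.sum_apply] at this
    simp only [Pi.smul_apply, smul_eq_mul, hd] at this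
    exact_mod_cast this
  have h8 : S.card * x ≤ g * m := by
    rw [h7, ← Finset.filter_true_of_mem h1, ← Finset.card_subtype, ← smul_eq_mul,
      ← Finset.sum_const]
    refine (Finset.sum_le_sum fun ψ hψ => ?_).trans
      (Finset.sum_le_sum_of_subset (Finset.subset_univ _))
    have hψ' : (ψ : G → ℂ) ∈ S := Finset.mem_subtype.1 hψ
    have e1 : d ψ = x := by
      have := h3 _ hψ' χ hS
      rw [hd, hx] at this
      exact_mod_cast this
    have e2 : k ψ ≠ 0 := fun e => hπ (by rw [h6 χ hS _ hψ', hk, e, Nat.cast_zero])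
    rw [e1]
    exact Nat.le_mul_of_pos_left x (Nat.pos_of_ne_zero e2)
  rw [h.card_T, h.idx] at h2
  have hb := h.big
  have h9 : x ≤ g * n := by
    by_contra! hlt
    have h10 : m * x ≤ g * n * m + x := by nlinarith
    generalize g * n = y at hb hlt h10
    obtain ⟨m', rfl⟩ : ∃ m', m = m' + 1 := ⟨m - 1, by omega⟩
    have h11 := Nat.mul_le_mul_left m' (Nat.succ_le_of_lt hlt)
    have h12 : m' ≤ y := by nlinarith
    nlinarith
  have h10 := leo h.cc h.gen hχ hχ1 hx (by rw [h.card_T]; nlinarith)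
  have h11 := h.idx
  rw [Subgroup.relIndex_eq_one.2 h10] at h11
  exact h.prime.ne_one h11.symm

end CfsgLib.Sgr
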