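import Cfsg.Agent.Lib.Sgr.GDefs
import Cfsg.Agent.Lib.CK.LDefs
import Cfsg.Agent.Lib.ClMax.ExtField

/-!
Singer normaliser: vocabulary for the field part.  `V = K`, an extension of `F` of prime degree.
-/

set_option autoImplicit false

namespace CfsgLib.Sgr

open Module CfsgLib.CK CfsgLib.ClMax

variable {F K : Type*} [Field F] [Field K] [Algebra F K]

/-- multiplication by `t ≠ 0` -/
noncomputable def mulE (F : Type*) {K : Type*} [Field F] [Field K] [Algebra F K] (t : K)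
    (ht : t ≠ 0) : K ≃ₗ[F] K :=
  { LinearMap.mulLeft F t with
    invFun := fun x => t⁻¹ * x
    left_inv := fun x => inv_mul_cancel_left₀ ht x
    right_inv := fun x => mul_inv_cancel_left₀ ht x }

@[simp] theorem mulE_apply (t : K) (ht : t ≠ 0) (x : K) : mulE F t ht x = t * x := rfl

/-- the multiplications by elements of norm one -/
def T0 (F K : Type*) [Field F] [Field K] [Algebra F K] : Subgroup (K ≃ₗ[F] K) where
  carrier := {a | ∃ t : K, t ≠ 0 ∧ Algebra.norm F t = 1 ∧ ∀ x, a x = t * x}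
  one_mem' := ⟨1, one_ne_zero, map_one _, fun x => (one_mul x).symm⟩
  mul_mem' := by
    rintro a b ⟨s, hs0, hs, ha⟩ ⟨t, ht0, ht, hb⟩
    exact ⟨s * t, mul_ne_zero hs0 ht0, by rw [map_mul, hs, ht, one_mul], fun x => by
      rw [LinearEquiv.mul_apply, hb, ha, mul_assoc]⟩
  inv_mem' := by
    rintro a ⟨t, ht0, ht, ha⟩
    refine ⟨t⁻¹, inv_ne_zero ht0, ?_, fun x => ?_⟩
    · have := map_mul (Algebra.norm F) t t⁻¹
      rw [mul_inv_cancel₀ ht0, map_one, ht, one_mul] at this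
      exact this.symm
    · apply a.injective
      rw [ha (t⁻¹ * x), mul_inv_cancel_left₀ ht0]
      exact a.apply_symm_apply x

theorem mem_T0 {a : K ≃ₗ[F] K} :
    a ∈ T0 F K ↔ ∃ t : K, t ≠ 0 ∧ Algebra.norm F t = 1 ∧ ∀ x, a x = t * x := Iff.rfl

theorem mulE_mem {t : K} (ht : t ≠ 0) (h : Algebra.norm F t = 1) : mulE F t ht ∈ T0 F K :=
  ⟨t, ht, h, fun _ => rfl⟩

/-- the points -/
abbrev Pts (F K : Type*) [Field F] [Field K] [Algebra F K] : Type _ :=
  {x : Submodule F K // finrank F x = 1}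

instance : MulAction (K ≃ₗ[F] K) (Pts F K) where
  smul a x := ⟨a • x.1, by rw [finrank_smul]; exact x.2⟩
  one_smul x := Subtype.ext (one_smul _ x.1)
  mul_smul a b x := Subtype.ext (mul_smul a b x.1)

theorem coe_smul_pts (a : K ≃ₗ[F] K) (x : Pts F K) : (a • x).1 = a • x.1 := rfl

instance [Finite K] : Finite (Pts F K) := inferInstanceAs (Finite (Subtype _))

/-- the action on the points -/
noncomputable def phi (F K : Type*) [Field F] [Field K] [Algebra F K] :
    (K ≃ₗ[F] K) →* Equiv.Perm (Pts F K) := MulAction.toPermHom _ _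

theorem phi_apply (a : K ≃ₗ[F] K) (x : Pts F K) : phi F K a x = a • x := rfl

/-- the group induced on the points -/
noncomputable abbrev GG (H : Subgroup (K ≃ₗ[F] K)) : Subgroup (Equiv.Perm (Pts F K)) :=
  H.map (phi F K)

/-- the image of the norm one group -/
noncomputable abbrev TT (H : Subgroup (K ≃ₗ[F] K)) : Subgroup (GG H) :=
  ((T0 F K).map (phi F K)).subgroupOf (GG H)

theorem GG_smul {H : Subgroup (K ≃ₗ[F] K)} (b : GG H) {a : K ≃ₗ[F] K} (h : phi F K a = b)
    (x : Pts F K) : b • x = a • x := by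
  show (b : Equiv.Perm (Pts F K)) x = _
  rw [← h]; rfl

/-- `ΓL₁ ⊓ SL < H ≤ SL` -/
structure Hyp (H : Subgroup (K ≃ₗ[F] K)) (n : ℕ) : Prop where
  rank : finrank F K = n
  prime : n.Prime
  big : 13 ≤ n
  det : ∀ a ∈ H, LinearMap.det (a : K →ₗ[F] K) = 1
  semi : ∀ a : K ≃ₗ[F] K, LinearMap.det (a : K →ₗ[F] K) = 1 → Semi (a : K →ₗ[F] K) → a ∈ H
  ns : ∃ a ∈ H, ¬ Semi (a : K →ₗ[F] K)

end CfsgLib.Sgr
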