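import Cfsg.Agent.Lib.Sgr.Two5
import Cfsg.Agent.Lib.Sgr.Fin

/-!
Singer normaliser, prime degree at least five: the normaliser of a Singer field is maximal.
-/

set_option autoImplicit false

namespace CfsgLib.Sgr

open Module CfsgLib.CK CfsgLib.ClMax

section
variable {F K : Type*} [Field F] [Finite F] [Field K] [Finite K] [Algebra F K]

theorem Hyp5.sl_le {H : Subgroup (K ≃ₗ[F] K)} {n : ℕ} (h : Hyp5 H n) (f : K ≃ₗ[F] K)
    (hf : LinearMap.det (f : K →ₗ[F] K) = 1) : f ∈ H := by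
  have h1 := h.rank
  have h2 := h.big
  exact TvGen.mem_of_det_eq_one H
    ((ck (by omega) h.two).resolve_right fun e => by have := e.1; omega) f hf

variable {V : Type*} [AddCommGroup V] [Module F V] [Module K V] [IsScalarTower F K V]

theorem fin_abstract5 (hV : finrank K V = 1) (hp : (finrank F K).Prime) (h5 : 5 ≤ finrank F K) :
    (∃ g ∈ SLV F V, ¬ SemiK K g) ∧ ∀ X : Subgroup (V ≃ₗ[F] V), X ≤ SLV F V →
      (∀ g ∈ SLV F V, SemiK K g → g ∈ X) → ∀ g ∈ X, ¬ SemiK K g → SLV F V ≤ X := by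
  have : FiniteDimensional K V := Module.finite_of_finrank_pos (by omega)
  let e : K ≃ₗ[K] V := LinearEquiv.ofFinrankEq K V (by simp [hV])
  refine ⟨?_, fun X h1 h2 g hg hg' f hf => ?_⟩
  · obtain ⟨g, hg, hg'⟩ := fin_exists_not_semi hp (by omega)
    obtain ⟨g, rfl⟩ := (finCj (F := F) e).surjective g
    exact ⟨g, by rwa [mem_SLV, ← finCj_det e, ← mem_SLV], by rwa [← finCj_semi e]⟩
  · have hy : Hyp5 (X.map (finCj (F := F) e).toMonoidHom) (finrank F K) :=
      { rank := rfl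
        prime := hp
        big := h5
        det := by
          rintro _ ⟨a, ha, rfl⟩
          exact (finCj_det e a).trans (mem_SLV.1 (h1 ha))
        semi := fun a ha hs => by
          obtain ⟨a, rfl⟩ := (finCj (F := F) e).surjective a
          exact ⟨a, h2 a (mem_SLV.2 ((finCj_det e a).symm.trans ha)) ((finCj_semi e a).1 hs), rfl⟩
        ns := ⟨finCj e g, ⟨g, hg, rfl⟩, fun hs => hg' ((finCj_semi e g).1 hs)⟩ }
    obtain ⟨a, ha, ha'⟩ := hy.sl_le (finCj e f) ((finCj_det e f).trans (mem_SLV.1 hf))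
    exact (finCj (F := F) e).injective ha' ▸ ha

end

universe u

theorem singer_maximal5 {F : Type u} [Field F] [Fintype F] {ι : Type} [Fintype ι]
    [DecidableEq ι] (r : ℕ) (hr : r.Prime) (h5 : 5 ≤ Fintype.card ι)
    (K₀ : Subalgebra F (Matrix ι ι F)) (hK : Cfsg.Geo.IsFieldSubalgebra r K₀) :
    Cfsg.Geo.IsMaximalIn (Cfsg.Geo.specialLinear ι F)
      (Cfsg.Geo.subalgebraNormalizer K₀ ⊓ Cfsg.Geo.specialLinear ι F) := by
  by_cases hlt : r < Fintype.card ι
  · exact (subalgebraNormalizer_maximal r hr hlt K₀ hK).2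
  have : Nonempty ι := Fintype.card_pos_iff.1 (by omega)
  refine with_ext_field hK fun K _ _ _ _ _ hrK hdim _ _ hN => ?_
  have hd : finrank K (ι → F) = 1 := by
    rcases Nat.lt_trichotomy (finrank K (ι → F)) 1 with h1 | h1 | h1
    · rw [Nat.lt_one_iff.1 h1] at hdim; omega
    · exact h1
    · nlinarith [hr.pos]
  rw [hd, mul_one] at hdim
  have hN' : ∀ g, g ∈ Cfsg.Geo.subalgebraNormalizer K₀ ↔ SemiK K (toEquiv g) :=
    fun g => hN g _ (toEquiv_apply g)
  have hS : ∀ g : GL ι F, g ∈ Cfsg.Geo.specialLinear ι F ↔ toEquiv g ∈ SLV F (ι → F) :=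
    fun g => by rw [specialLinear_eq]; rfl
  obtain ⟨⟨e, he, he'⟩, key⟩ := fin_abstract5 (F := F) (K := K) hd (hrK ▸ hr) (by omega)
  have he1 : toEquiv.symm e ∉ Cfsg.Geo.subalgebraNormalizer K₀ := by rw [hN']; simpa
  refine isMaximalIn_of inf_le_right ⟨toEquiv.symm e, (hS _).2 (by simpa), fun h => he1 h.1⟩
    fun X h1 h2 g hg hg' a ha => ?_
  have h3 := key (X.map (toEquiv (ι := ι) (F := F)).toMonoidHom)
    (by rintro _ ⟨b, hb, rfl⟩; exact (hS b).1 (h2 hb))
    (fun e he hs => by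
      refine ⟨toEquiv.symm e, h1 ⟨(hN' _).2 ?_, (hS _).2 ?_⟩, by simp⟩ <;> simpa)
    (toEquiv g) ⟨g, hg, rfl⟩ (fun h => hg' ⟨(hN' g).2 h, h2 hg⟩)
  obtain ⟨b, hb, hb'⟩ := h3 ((hS a).1 ha)
  exact toEquiv.injective hb' ▸ hb

end CfsgLib.Sgr
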