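import Cfsg.Agent.Lib.Sgr.Fld

/-!
Singer normaliser, package FRA: the image of the norm one group is a CC-subgroup.
-/

set_option autoImplicit false
set_option linter.unusedSectionVars false

namespace CfsgLib.Sgr

open Module CfsgLib.CK CfsgLib.ClMax

variable {F K : Type*} [Field F] [Finite F] [Field K] [Finite K] [Algebra F K]
  {H : Subgroup (K ≃ₗ[F] K)} {n : ℕ}

theorem fra_mem {t : GG H} : t ∈ TT H ↔ ∃ a ∈ T0 F K, phi F K a = t := by
  rw [Subgroup.mem_subgroupOf, Subgroup.mem_map]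

theorem fra_lift {t : GG H} (ht : t ∈ TT H) (h1 : t ≠ 1) : ∃ (a : K ≃ₗ[F] K) (s : K),
    Algebra.norm F s = 1 ∧ (∀ x, a x = s * x) ∧ s ∉ (algebraMap F K).range ∧ phi F K a = t := by
  obtain ⟨a, ⟨s, -, hN, ha⟩, hat⟩ := fra_mem.1 ht
  refine ⟨a, s, hN, ha, fun hs => h1 (Subtype.ext ?_), hat⟩
  rw [← hat]
  ext x : 2
  exact fix_of_mem_range ha hs _

theorem fra_phi_eq {a b : K ≃ₗ[F] K} (h : phi F K a = phi F K b) :
    ∃ c : F, c ≠ 0 ∧ ∀ x, a x = c • b x := by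
  obtain ⟨c, hc0, hc⟩ := (phi_eq_one_iff (a := a * b⁻¹)).1 (by
    rw [map_mul, map_inv, h, mul_inv_cancel])
  refine ⟨c, hc0, fun x => ?_⟩
  rw [← hc, ← LinearEquiv.mul_apply, inv_mul_cancel_right]

theorem Hyp.fra_odd (h : Hyp H n) : Odd (finrank F K) := by
  rw [h.rank]
  exact h.prime.odd_of_ne_two (by have := h.big; omega)

theorem Hyp.cc (h : Hyp H n) : IsCC (TT H) := by
  intro t ht h1
  obtain ⟨a, s, hN, ha, hs, hat⟩ := fra_lift ht h1
  ext b
  rw [Subgroup.mem_centralizer_singleton_iff]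
  constructor
  · intro hb
    obtain ⟨g, hg, hgb⟩ := b.2
    obtain ⟨c, -, hc⟩ := fra_phi_eq (a := g * a) (b := a * g) (by
      rw [map_mul, map_mul, hgb, hat]; exact congrArg Subtype.val hb)
    simp only [LinearEquiv.mul_apply, ha] at hc
    obtain ⟨c0, σ, h0⟩ := (semi_of_conj (h.rank ▸ h.prime) (a := (g : K →ₗ[F] K)) (t' := c • s) hs
      fun x => by simpa using hc x).exists_eq
    simp only [LinearEquiv.coe_coe] at h0
    have hc0 : c0 ≠ 0 := by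
      rintro rfl
      exact one_ne_zero (g.injective (by rw [h0, zero_mul, map_zero]) : (1 : K) = 0)
    have h2 : σ s = c • s := by
      have h3 := hc 1
      rw [h0, h0, mul_one, map_one, mul_one, mul_comm s, ← mul_smul_comm] at h3
      exact mul_left_cancel₀ hc0 h3
    have h3 := gal_eq_one (h.rank ▸ h.prime) h.fra_odd hs hN h2
    subst h3
    exact fra_mem.2 ⟨g, ⟨c0, hc0, by rw [← det_of_mul h0, h.det g hg], h0⟩, hgb⟩
  · intro hb
    obtain ⟨g, ⟨s', -, -, hg⟩, hgb⟩ := fra_mem.1 hb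
    apply Subtype.ext
    rw [Subgroup.coe_mul, Subgroup.coe_mul, ← hgb, ← hat, ← map_mul, ← map_mul]
    congr 1
    ext x
    simp only [LinearEquiv.mul_apply, ha, hg, mul_left_comm]

theorem Hyp.free (h : Hyp H n) : ∀ t ∈ TT H, t ≠ 1 → ∀ x : Pts F K, t • x ≠ x := by
  intro t ht h1 x hx
  obtain ⟨a, s, -, ha, hs, hat⟩ := fra_lift ht h1
  rw [GG_smul t hat] at hx
  exact hs (mem_range_of_fix ha x.2 (congrArg Subtype.val hx))

theorem Hyp.semi_of_norm (h : Hyp H n) (hT : TT H ≠ ⊥) {a : K ≃ₗ[F] K} {b : GG H}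
    (hab : phi F K a = b) (hb : b ∈ Subgroup.normalizer ((TT H : Subgroup (GG H)) : Set (GG H))) :
    Semi (a : K →ₗ[F] K) := by
  obtain ⟨⟨t, ht⟩, h1⟩ := (Subgroup.ne_bot_iff_exists_ne_one).1 hT
  obtain ⟨a0, s, -, ha0, hs, hat⟩ := fra_lift ht fun e => h1 (Subtype.ext e)
  obtain ⟨a', ⟨s', -, -, ha'⟩, hat'⟩ := fra_mem.1 ((Subgroup.mem_normalizer_iff.1 hb t).1 ht)
  obtain ⟨c, -, hc⟩ := fra_phi_eq (a := a * a0) (b := a' * a) (by
    rw [map_mul, map_mul, hab, hat, hat']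
    simp)
  simp only [LinearEquiv.mul_apply, ha0, ha'] at hc
  exact semi_of_conj (h.rank ▸ h.prime) (t' := c • s') hs fun x => by simpa using hc x

theorem Hyp.not_normal (h : Hyp H n) (hT : TT H ≠ ⊥) : ¬ (TT H).Normal := by
  intro hN
  obtain ⟨a, ha, hns⟩ := h.ns
  exact hns (h.semi_of_norm hT (b := ⟨phi F K a, Subgroup.mem_map_of_mem _ ha⟩) rfl
    (by rw [Subgroup.normalizer_eq_top]; trivial))

theorem Hyp.fra_gal (h : Hyp H n) (σ : K ≃ₐ[F] K) :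
    (⟨phi F K σ.toLinearEquiv, Subgroup.mem_map_of_mem _ (h.gal_mem σ)⟩ : GG H) ∈
      Subgroup.normalizer ((TT H : Subgroup (GG H)) : Set (GG H)) := by
  refine Subgroup.mem_normalizer_fintype fun t ht => ?_
  obtain ⟨a, ⟨s, hs0, hN, ha⟩, hat⟩ := fra_mem.1 ht
  refine fra_mem.2 ⟨σ.toLinearEquiv * a * σ.toLinearEquiv⁻¹, ⟨σ s, (map_ne_zero _).2 hs0,
    by rw [Algebra.norm_eq_of_algEquiv, hN], fun x => ?_⟩, ?_⟩
  · rw [LinearEquiv.mul_apply, LinearEquiv.mul_apply, ha]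
    show σ (s * σ.symm x) = _
    rw [map_mul, AlgEquiv.apply_symm_apply]
  · rw [map_mul, map_mul, map_inv, hat]
    rfl

theorem Hyp.idx (h : Hyp H n) (hT : TT H ≠ ⊥) :
    (TT H).relIndex (Subgroup.normalizer ((TT H : Subgroup (GG H)) : Set (GG H))) = n := by
  rw [← h.rank, ← card_gal]
  symm
  refine Nat.card_eq_of_bijective (fun σ : K ≃ₐ[F] K =>
    (QuotientGroup.mk ⟨_, h.fra_gal σ⟩ : _ ⧸ (TT H).subgroupOf _)) ⟨fun σ τ e => ?_, fun b => ?_⟩
  · obtain ⟨a, ⟨s, -, -, ha⟩, h1⟩ := fra_mem.1 (Subgroup.mem_subgroupOf.1 (QuotientGroup.eq.1 e))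
    obtain ⟨c, -, hc⟩ := fra_phi_eq (a := τ.toLinearEquiv) (b := σ.toLinearEquiv * a) (by
      rw [map_mul, h1]
      simp)
    simp only [LinearEquiv.mul_apply, ha, AlgEquiv.toLinearEquiv_apply, map_mul] at hc
    ext x
    have h2 := hc 1
    rw [map_one, map_one, mul_one] at h2
    rw [hc, ← smul_mul_assoc, ← h2, one_mul]
  · obtain ⟨⟨b, hb⟩, rfl⟩ := QuotientGroup.mk_surjective b
    obtain ⟨g, hg, hgb⟩ := b.2
    obtain ⟨c, σ, hc⟩ := (h.semi_of_norm hT hgb hb).exists_eq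
    simp only [LinearEquiv.coe_coe] at hc
    have hc0 : c ≠ 0 := by
      rintro rfl
      exact one_ne_zero (g.injective (by rw [hc, zero_mul, map_zero]) : (1 : K) = 0)
    have h1 : ∀ x, (σ.toLinearEquiv⁻¹ * g) x = σ.symm c * x := fun x => by
      rw [LinearEquiv.mul_apply, hc]
      show σ.symm _ = _
      rw [map_mul, AlgEquiv.symm_apply_apply]
    refine ⟨σ, QuotientGroup.eq.2 (Subgroup.mem_subgroupOf.2 (fra_mem.2
      ⟨σ.toLinearEquiv⁻¹ * g, ⟨σ.symm c, (map_ne_zero _).2 hc0, ?_, h1⟩, ?_⟩))⟩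
    · rw [← det_of_mul h1, h.det _ (mul_mem (inv_mem (h.gal_mem σ)) hg)]
    · rw [map_mul, map_inv, hgb]
      rfl

end CfsgLib.Sgr
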