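import Cfsg.Agent.Lib.CK.B12
import Cfsg.Agent.Lib.CK.LDefs

/-!
Singer normaliser, package GEO: lattice lemmas.
-/

set_option autoImplicit false

namespace CfsgLib.Sgr

open Module CfsgLib.CK

variable {G L : Type*} [Group G] [CompleteLattice L] [MulAction G L] [Finite G] [Finite L]
  {P : PG G L} {Y : Subgroup G}

omit [Finite G] in
theorem geo_line {x l : L} (hx : P.rk x = 1) (hl : P.rk l = 2) (hxl : x ≤ l) :
    {y | P.rk y = 1 ∧ y ≤ l ∧ y ≠ x}.ncard = P.q := by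
  have h1 := P.ncard_pt_off (o := ⊥) bot_le hxl
  have h2 := P.rk_add_d hxl
  rw [P.d_bot, hx, show P.d x l = 1 by omega, P.θ_one, pow_one, mul_one] at h1
  rw [← h1]
  congr 1
  ext y
  rw [Set.mem_setOf_eq, Set.mem_setOf_eq, P.pt_bot]
  exact ⟨fun ⟨a, b, c⟩ => ⟨⟨b, a⟩, P.not_le_of_ne (by omega) c⟩,
    fun ⟨⟨b, a⟩, c⟩ => ⟨a, b, fun e => c e.le⟩⟩

omit [Finite G] in
theorem geo_lines {x : L} (hx : P.rk x = 1) : {l | P.Pt x ⊤ l}.ncard = P.θ (P.n - 1) := by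
  have := P.rk_add_ck x
  rw [P.ncard_pt le_top, P.d_top, show P.ck x = P.n - 1 by omega]

omit [Finite G] [Finite L] in
theorem geo_pt {x y : L} (hx : P.rk x = 1) (hy : P.rk y = 1) (hxy : x ≠ y) : P.Pt x ⊤ (x ⊔ y) :=
  (P.pt_line hx).2 ⟨le_sup_left, le_top, P.rk_sup_pts hx hy hxy⟩

omit [Finite G] [Finite L] in
theorem geo_sup {x y l : L} (hx : P.rk x = 1) (hy : P.rk y = 1) (hxy : x ≠ y) (hl : P.rk l = 2)
    (hxl : x ≤ l) (hyl : y ≤ l) : x ⊔ y = l :=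
  P.eq_of_rk_le (sup_le hxl hyl) (by rw [hl, P.rk_sup_pts hx hy hxy])

omit [Finite G] [Finite L] [CompleteLattice L] in
theorem geo_card (Y : Subgroup G) (a : L) :
    Nat.card (Stab Y a) * (orb Y a).ncard = Nat.card Y := by
  rw [ncard_orb, CfsgLib.Tech.card_mul_relIndex' (Stab_le Y a)]

omit [Finite G] [Finite L] in
theorem geo_Stab (P : PG G L) (Y : Subgroup G) (x y : L) :
    Stab (Stab (Stab Y x) (x ⊔ y)) y = Stab (Stab Y x) y :=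
  le_antisymm (fun _ h => ⟨h.1.1, h.2⟩) fun g h =>
    ⟨⟨h.1, show g • (x ⊔ y) = _ by rw [P.smul_sup, (mem_Stab.1 h.1).2, (mem_Stab.1 h).2]⟩, h.2⟩

theorem fix_le {a : G} {x : L} (hx : P.rk x = 1) (hn : a • x ≠ x) :
    {y | P.rk y = 1 ∧ a • y = y}.ncard ≤ P.θ (P.n - 1) + P.q := by
  have hx' : P.rk (a • x) = 1 := by rw [P.rk_smul, hx]
  have hl := P.rk_sup_pts hx hx' hn.symm
  have h1 : {y | (P.rk y = 1 ∧ a • y = y) ∧ ¬ y ≤ x ⊔ a • x}.ncard ≤ {l | P.Pt x ⊤ l}.ncard := by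
    refine Set.ncard_le_ncard_of_injOn (fun y => x ⊔ y)
      (fun y hy => geo_pt hx hy.1.1 fun e => hy.2 (e ▸ le_sup_left)) fun y hy y' hy' e => ?_
    by_contra hne
    have e' : x ⊔ y = x ⊔ y' := e
    have h2 := P.rk_sup_pts hx hy.1.1 fun e => hy.2 (e ▸ le_sup_left)
    have h3 := geo_sup hy.1.1 hy'.1.1 hne h2 le_sup_right (e' ▸ le_sup_right)
    have h4 : a • x ≤ x ⊔ y := by
      have := P.smul_mono a (le_sup_left : x ≤ x ⊔ y)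
      rwa [← h3, P.smul_sup, hy.1.2, hy'.1.2, h3] at this
    exact hy.2 (geo_sup hx hx' hn.symm h2 le_sup_left h4 ▸ le_sup_right)
  rw [geo_lines hx] at h1
  rw [← geo_line hx hl le_sup_left]
  refine le_trans (Set.ncard_le_ncard (t := _ ∪ _) (fun y hy => ?_))
    ((Set.ncard_union_le _ _).trans (Nat.add_le_add_right h1 _))
  by_cases h : y ≤ x ⊔ a • x
  · exact Or.inr ⟨hy.1, h, fun e => hn (e ▸ hy.2)⟩
  · exact Or.inl ⟨hy, h⟩

theorem orb_le_mul {x y : L} (hx : P.rk x = 1) (hy : P.rk y = 1) (hxy : x ≠ y) :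
    (orb (Stab Y x) y).ncard ≤ P.θ (P.n - 1) * (orb (Stab (Stab Y x) (x ⊔ y)) y).ncard := by
  have h1 := geo_card (Stab Y x) y
  have h2 := geo_card (Stab Y x) (x ⊔ y)
  have h3 := geo_card (Stab (Stab Y x) (x ⊔ y)) y
  rw [geo_Stab P] at h3
  have h4 : (orb (Stab Y x) (x ⊔ y)).ncard ≤ P.θ (P.n - 1) := by
    rw [← geo_lines hx]
    refine Set.ncard_le_ncard ?_
    rintro _ ⟨g, hg, rfl⟩
    exact (geo_pt hx hy hxy).smul' hg.2 (P.smul_top g)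
  rw [← h2, ← h3, mul_assoc] at h1
  rw [Nat.eq_of_mul_eq_mul_left Nat.card_pos h1, mul_comm]
  exact Nat.mul_le_mul_right _ h4

theorem orb_le_line (htr : Tr Y {x | P.rk x = 1}) {x y x' y' : L} (hx : P.rk x = 1)
    (hy : P.rk y = 1) (hxy : x ≠ y) (hx' : P.rk x' = 1) (hy' : P.rk y' = 1) (hxy' : x' ≠ y')
    (hl : x ⊔ y = x' ⊔ y') :
    (orb (Stab Y x') y').ncard ≤ P.q * (P.q + 1) * (orb (Stab Y x) y).ncard := by
  have r2 := P.rk_sup_pts hx' hy' hxy'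
  have h1 := geo_card (Stab Y x) y
  have h2 := geo_card (Stab Y x') y'
  have h3 : Nat.card (Stab Y x') = Nat.card (Stab Y x) := by
    obtain ⟨g, hg, rfl⟩ := htr x hx x' hx'
    rw [← cj_Stab_of_mem hg, CfsgLib.Tech.card_cj]
  have h4 := geo_card (Stab Y (x' ⊔ y')) x'
  have h5 := geo_card (Stab (Stab Y x') (x' ⊔ y')) y'
  rw [geo_Stab P] at h5
  rw [Stab_comm] at h4
  have h6 : (orb (Stab Y (x' ⊔ y')) x').ncard ≤ P.q + 1 := by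
    rw [← P.θ_two, ← r2, ← P.d_bot, ← P.ncard_pt bot_le]
    refine Set.ncard_le_ncard ?_
    rintro _ ⟨g, hg, rfl⟩
    exact (P.pt_bot.2 ⟨le_sup_left, hx'⟩).smul' (P.smul_bot g) hg.2
  have h7 : (orb (Stab (Stab Y x') (x' ⊔ y')) y').ncard ≤ P.q := by
    rw [← geo_line hx' r2 le_sup_left]
    refine Set.ncard_le_ncard ?_
    rintro _ ⟨g, hg, rfl⟩
    refine ⟨by rw [P.rk_smul, hy'], ?_, fun e => hxy' ?_⟩
    · rw [← (mem_Stab.1 hg).2]; exact P.smul_mono g le_sup_right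
    · exact smul_left_cancel g ((mem_Stab.1 hg.1).2.trans e.symm)
  have h8 : Nat.card (Stab (Stab Y x) y) ≤ Nat.card (Stab Y (x' ⊔ y')) := by
    rw [← geo_Stab P, hl]
    exact Subgroup.card_le_of_le fun g hg => ⟨hg.1.1.1, hg.1.2⟩
  refine Nat.le_of_mul_le_mul_left ?_ (Nat.card_pos (α := Stab (Stab Y x') y'))
  rw [h2, h3, ← h1, ← mul_assoc]
  refine Nat.mul_le_mul_right _ (h8.trans ?_)
  rw [← h4, ← h5, mul_assoc]
  exact Nat.mul_le_mul_left _ (Nat.mul_le_mul h7 h6)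

/-- transitivity on `l - x` -/
def LT (P : PG G L) (Y : Subgroup G) (x l : L) : Prop :=
  Tr (Stab (Stab Y x) l) {y | P.rk y = 1 ∧ y ≤ l ∧ y ≠ x}

theorem LT.smul {x l : L} (h : LT P Y x l) {a : G} (ha : a ∈ Y) : LT P Y (a • x) (a • l) := by
  have k : ∀ y ∈ {y | P.rk y = 1 ∧ y ≤ a • l ∧ y ≠ a • x},
      a⁻¹ • y ∈ {y | P.rk y = 1 ∧ y ≤ l ∧ y ≠ x} := fun y hy =>
    ⟨by rw [P.rk_smul, hy.1], (P.le_smul_iff' a).1 hy.2.1, fun e => hy.2.2 (inv_smul_eq_iff.1 e)⟩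
  intro y hy y' hy'
  obtain ⟨g, hg, e⟩ := h _ (k y hy) _ (k y' hy')
  refine ⟨a * g * a⁻¹, mem_Stab.2 ⟨mem_Stab.2 ⟨mul_mem (mul_mem ha hg.1.1) (inv_mem ha), ?_⟩, ?_⟩, ?_⟩
  · rw [mul_smul, mul_smul, inv_smul_smul, (mem_Stab.1 hg.1).2]
  · rw [mul_smul, mul_smul, inv_smul_smul, (mem_Stab.1 hg).2]
  · rw [mul_smul, mul_smul, e, smul_inv_smul]

theorem LT.all {u v l : L} (hu : P.rk u = 1) (hv : P.rk v = 1) (huv : u ≠ v) (hul : u ≤ l)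
    (hvl : v ≤ l) (h1 : LT P Y u l) (h2 : LT P Y v l) {x : L} (hx : P.rk x = 1) (hxl : x ≤ l) :
    LT P Y x l := by
  have _ := hu
  have _ := hul
  by_cases e : x = u
  · exact e ▸ h1
  obtain ⟨g, hg, rfl⟩ := h1 v ⟨hv, hvl, huv.symm⟩ x ⟨hx, hxl, e⟩
  have := h2.smul hg.1.1
  rwa [(mem_Stab.1 hg).2] at this

theorem at_of_lines (h2 : 2 ≤ P.n) (htr : Tr Y {x | P.rk x = 1})
    (h : ∀ x l, P.rk x = 1 → P.rk l = 2 → x ≤ l → LT P Y x l) : P.AT Y ⊥ ⊤ := by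
  have key : ∀ x, P.rk x = 1 → Tr (Stab Y x) {D | P.Hy ⊥ ⊤ D ∧ ¬ x ≤ D} := fun x hx => by
    have h1 := PG.orbN_split (P.fx_bot _) (P.fx_top _) (P.pt_bot_top.2 hx) (fx_Stab Y x)
    rw [← PG.orbN_pt_hy le_top (fx_Stab Y x) (P.fx_top _)] at h1
    have k : ∀ y, (fun y => x ⊔ y) '' orb (Stab Y x) y = orb (Stab Y x) (x ⊔ y) := fun y =>
      Set.ext fun c => ⟨by
        rintro ⟨_, ⟨g, hg, rfl⟩, rfl⟩
        exact ⟨g, hg, by rw [P.smul_sup, (mem_Stab.1 hg).2]⟩, by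
        rintro ⟨g, hg, rfl⟩
        exact ⟨_, ⟨g, hg, rfl⟩, by rw [P.smul_sup, (mem_Stab.1 hg).2]⟩⟩
    have h3 : orbN (Stab Y x) {y | P.Pt ⊥ ⊤ y ∧ ¬ y ≤ x} ≤ orbN (Stab Y x) {l | P.Pt x ⊤ l} := by
      refine Set.ncard_le_ncard_of_injOn (Set.image fun y => x ⊔ y) ?_ ?_
      · rintro _ ⟨y, hy, rfl⟩
        exact ⟨_, geo_pt hx (P.pt_bot_top.1 hy.1) fun e => hy.2 e.ge, (k y).symm⟩
      · rintro _ ⟨y, hy, rfl⟩ _ ⟨y', hy', rfl⟩ e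
        rw [k, k] at e
        obtain ⟨g, hg, e⟩ := orb_eq_iff.1 e
        have r := P.pt_bot_top.1 hy.1
        have r' := P.pt_bot_top.1 hy'.1
        obtain ⟨g', hg', e'⟩ := h x _ hx (P.rk_sup_pts hx r' fun e => hy'.2 e.ge) le_sup_left (g • y)
          ⟨by rw [P.rk_smul, r], e ▸ P.smul_mono g le_sup_right, fun e => hy.2
            (smul_left_cancel g (e.trans (mem_Stab.1 hg).2.symm)).le⟩
          y' ⟨r', le_sup_right, fun e => hy'.2 e.le⟩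
        exact orb_eq_iff.2 ⟨g' * g, mul_mem hg'.1 hg, by rw [mul_smul, e']⟩
    exact orbN_le_one_iff.1 (by omega)
  refine ⟨le_top, h2, P.fx_bot _, P.fx_top _, fun e D e' D' he hD hn he' hD' hn' => ?_⟩
  obtain ⟨g, hg, rfl⟩ := htr e (P.pt_bot_top.1 he) e' (P.pt_bot_top.1 he')
  obtain ⟨g', hg', k⟩ := key _ (P.pt_bot_top.1 he') (g • D)
    ⟨hD.smul' (P.smul_bot g) (P.smul_top g), P.not_le_smul hn⟩ D' ⟨hD', hn'⟩
  exact ⟨g' * g, mul_mem hg'.1 hg, by rw [mul_smul, (mem_Stab.1 hg').2], by rw [mul_smul, k]⟩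

theorem two_of_at (h : P.AT Y ⊥ ⊤) (hk : ∀ x y, P.rk x = 1 → P.rk y = 1 → x ≠ y →
    P.θ (P.n - 1) ≤ (orb (Stab Y x) y).ncard) : P.Two Y ⊥ ⊤ := by
  obtain ⟨e, he⟩ := P.exists_pt' (o := ⊥) (t := ⊤) (P.lt_of_rk_lt le_top (by
    have := h.two
    rw [P.d_bot] at this
    rw [P.rk_bot]; omega))
  refine h.two_of_W he (le_antisymm ?_ (h.le_W he))
  by_contra hn
  obtain ⟨y, hy, h1, h2⟩ := P.exists_rk1 hn
  have h3 := hk e y (P.pt_bot_top.1 he) hy fun k => h2 k.ge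
  have h4 : (orb (Stab Y e) y).ncard < {z | P.Pt ⊥ (W Y ⊥ ⊤ e) z}.ncard := by
    refine Set.ncard_lt_ncard ⟨?_, fun k => ?_⟩
    · rintro _ ⟨g, hg, rfl⟩
      exact (P.pt_bot.2 ⟨h1, hy⟩).smul' (P.smul_bot g)
        (by rw [P.smul_W' hg.1 h.fo h.ft, (mem_Stab.1 hg).2])
    · obtain ⟨g, hg, k⟩ := k (he.mono (h.le_W he))
      exact h2 (smul_left_cancel g (k.trans (mem_Stab.1 hg).2.symm)).le
  have h5 := P.rk_lt (h.W_lt he)
  rw [P.rk_top] at h5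
  rw [P.ncard_pt bot_le, P.d_bot] at h4
  have := P.θ_lt_iff.1 (h3.trans_lt h4)
  omega

end CfsgLib.Sgr
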