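import Cfsg.Agent.Lib.CK.Th

/-!
Singer normaliser, package NUM: estimates.
-/

set_option autoImplicit false

namespace CfsgLib.Sgr

open CfsgLib.CK

theorem num_succ (q k : ℕ) : th q (k + 1) = th q k + q ^ k := Finset.sum_range_succ _ _

theorem num_succ' (q k : ℕ) : th q (k + 1) = 1 + q * th q k := by
  simp only [th, Finset.sum_range_succ', Finset.mul_sum, pow_zero, pow_succ']
  rw [add_comm]

theorem num_one {q n : ℕ} (hq : 2 ≤ q) (hn : 13 ≤ n) :
    (1 * n) ^ 2 + 1 < th q n ∧ th q (n - 1) + q + 1 < th q n := by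
  obtain ⟨k, rfl⟩ : ∃ k, n = k + 12 + 1 := ⟨n - 13, by omega⟩
  have h1 : (k + 13) ^ 2 + 1 < 2 ^ (k + 12) := by
    clear hn
    induction k with
    | zero => norm_num
    | succ k ih => rw [show k + 1 + 12 = k + 12 + 1 by ring, pow_succ 2]; nlinarith
  have h2 := Nat.pow_le_pow_left hq (k + 12)
  have h3 : q ^ 3 ≤ q ^ (k + 12) := Nat.pow_le_pow_right (by omega) (by omega)
  rw [num_succ, Nat.add_sub_cancel, one_mul]
  exact ⟨lt_of_lt_of_le h1 (by omega), by nlinarith [Nat.mul_le_mul hq hq]⟩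

theorem num_n {q n m : ℕ} (hq : n + 1 ≤ q) (hn : 13 ≤ n) (hm : n * m = th q n) :
    (n * n) ^ 2 + 1 < m ∧ th q (n - 1) + q + n < m ∧ 16 * n ^ 5 < m ∧
      (n + 1) * (q * (q + 1) * (2 * n ^ 3)) ≤ th q n := by
  obtain ⟨k, rfl⟩ : ∃ k, n = k + 11 + 1 + 1 := ⟨n - 13, by omega⟩
  have h1 : q ^ 11 ≤ th q (k + 11 + 1) :=
    (Nat.pow_le_pow_right (by omega) (by omega)).trans (num_succ q _ ▸ Nat.le_add_left _ _)
  rw [num_succ'] at hm
  rw [Nat.add_sub_cancel, num_succ' q (k + 11 + 1)]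
  generalize th q (k + 11 + 1) = θ at *
  generalize k + 11 + 1 + 1 = n at *
  have h2 : n * θ + θ < n * m := by nlinarith [Nat.mul_le_mul_right θ hq]
  have h3 : θ < m := lt_of_mul_lt_mul_left (a := n) (by omega) (Nat.zero_le _)
  have p : ∀ j, n ^ j ≤ q ^ j := fun j => Nat.pow_le_pow_left (by omega) j
  have h4 : 14 ^ 5 * q ^ 6 ≤ q ^ 11 := by
    rw [show q ^ 11 = q ^ 5 * q ^ 6 by ring]
    exact Nat.mul_le_mul_right _ (Nat.pow_le_pow_left (by omega) 5)
  have r : ∀ j ≤ 6, q ^ j ≤ q ^ 6 := fun j hj => Nat.pow_le_pow_right (by omega) hj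
  have r0 : 0 < q ^ 6 := pow_pos (by omega) 6
  have r2 := r 2 (by omega)
  have r4 := r 4 (by omega)
  have r5 := r 5 (by omega)
  have p4 := p 4
  have p5 := p 5
  refine ⟨by rw [show (n * n) ^ 2 = n ^ 4 by ring]; omega,
    lt_of_mul_lt_mul_left (a := n) (by nlinarith) (Nat.zero_le _), by omega, ?_⟩
  calc _ ≤ q * (q * (2 * q) * (2 * q ^ 3)) := by gcongr <;> omega
    _ = 4 * q ^ 6 := by ring
    _ ≤ θ := by omega
    _ ≤ _ := by nlinarith

end CfsgLib.Sgr
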