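import Cfsg.Agent.Lib.Sgr.Fra
import Cfsg.Agent.Lib.Sgr.Geo
import Cfsg.Agent.Lib.Sgr.Num

/-!
Singer normaliser, package FRB: orders; the abstract situation holds.
-/

set_option autoImplicit false
set_option linter.unusedSectionVars false

namespace CfsgLib.Sgr

open Module CfsgLib.CK CfsgLib.ClMax

variable {F K : Type*} [Field F] [Finite F] [Field K] [Finite K] [Algebra F K]
  {H : Subgroup (K ≃ₗ[F] K)} {n : ℕ}

theorem Hyp.frb_card (h : Hyp H n) :
    Nat.card (rootsOfUnity n F) * Nat.card (TT H) = th (Nat.card F) n := by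
  let f : T0 F K →* Equiv.Perm (Pts F K) := (phi F K).comp (T0 F K).subtype
  have h1 := f.ker.card_mul_index
  rw [Subgroup.index_ker, MonoidHom.range_comp, Subgroup.range_subtype, card_T0, h.rank,
    ← Nat.card_congr (Subgroup.subgroupOfEquivOfLe (Subgroup.map_mono h.T0_le)).toEquiv] at h1
  rw [← h1]
  congr 1
  have h0 : ∀ c : rootsOfUnity n F, algebraMap F K (c.1 : F) ≠ 0 := fun c =>
    (map_ne_zero _).2 c.1.ne_zero
  refine Nat.card_eq_of_bijective (fun c : rootsOfUnity n F => (⟨⟨mulE F _ (h0 c), mulE_mem _ (by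
    rw [Algebra.norm_algebraMap, h.rank]; exact (mem_rootsOfUnity' _ _).1 c.2)⟩,
      phi_eq_one_iff.2 ⟨_, c.1.ne_zero, fun x => (Algebra.smul_def _ _).symm⟩⟩ : f.ker))
    ⟨fun c d e => ?_, ?_⟩
  · have h3 := LinearEquiv.congr_fun (congrArg Subtype.val (congrArg Subtype.val e)) 1
    exact Subtype.ext (Units.ext (by simpa using h3))
  · rintro ⟨⟨a, ha⟩, hk⟩
    obtain ⟨c, hc0, hc⟩ := phi_eq_one_iff.1 (show phi F K a = 1 from hk)
    have h3 : ∀ x, a x = algebraMap F K c * x := fun x => by rw [hc, Algebra.smul_def]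
    have h4 := h.det a (h.T0_le ha)
    rw [det_of_mul h3, Algebra.norm_algebraMap, h.rank] at h4
    exact ⟨⟨Units.mk0 c hc0, (mem_rootsOfUnity' _ _).2 h4⟩,
      Subtype.ext (Subtype.ext (LinearEquiv.ext fun x => (h3 x).symm))⟩

theorem Hyp.card_one (h : Hyp H n) (hq : ¬ n ∣ Nat.card F - 1) :
    Nat.card (TT H) = th (Nat.card F) n := by
  have h1 : rootsOfUnity n F = ⊥ := by
    rw [eq_bot_iff]
    intro c hc
    have h2 := orderOf_dvd_natCard c
    rw [Nat.card_units] at h2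
    rcases (Nat.dvd_prime h.prime).1 (orderOf_dvd_of_pow_eq_one ((mem_rootsOfUnity _ _).1 hc)) with
      h3 | h3
    · exact orderOf_eq_one_iff.1 h3
    · exact absurd (h3 ▸ h2) hq
  rw [← h.frb_card, h1, Subgroup.card_bot, one_mul]

theorem Hyp.card_n (h : Hyp H n) (hq : n ∣ Nat.card F - 1) :
    n * Nat.card (TT H) = th (Nat.card F) n := by
  obtain ⟨-, ζ, -, -, hz, -⟩ := exists_theta h.rank h.prime (h.rank ▸ h.fra_odd) hq
  have : NeZero n := ⟨h.prime.ne_zero⟩
  rw [← h.frb_card, hz.card_rootsOfUnity]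

theorem Hyp.fix (h : Hyp H n) (a : GG H) (ha : a ≠ 1) :
    Nat.card (MulAction.fixedBy (Pts F K) a) ≤ th (Nat.card F) (n - 1) + Nat.card F := by
  obtain ⟨g, -, hg⟩ := a.2
  obtain ⟨x, hx⟩ : ∃ x : Pts F K, g • x ≠ x := by
    by_contra! h1
    exact ha (Subtype.ext (hg.symm.trans (Equiv.ext h1)))
  have h1 := fix_le (P := lin F K) (a := g) (x := x.1) (by rw [lin_rk, x.2])
    fun e => hx (Subtype.ext e)
  rw [lin_n, h.rank] at h1
  refine le_trans (le_of_eq ?_) h1
  rw [Nat.card_coe_set_eq, ← Set.ncard_image_of_injective _ Subtype.val_injective]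
  congr 1
  ext y
  simp only [Set.mem_image, MulAction.mem_fixedBy, Set.mem_ofPred_eq, lin_rk, GG_smul a hg]
  constructor
  · rintro ⟨z, hz, rfl⟩
    exact ⟨z.2, congrArg Subtype.val hz⟩
  · rintro ⟨h2, h3⟩
    exact ⟨⟨y, h2⟩, Subtype.ext h3, rfl⟩

theorem Hyp.sit_one (h : Hyp H n) (hq : ¬ n ∣ Nat.card F - 1) :
    Sit (Pts F K) (TT H) n (Nat.card (TT H)) 1 := by
  obtain ⟨h1, h2⟩ := num_one (q := Nat.card F) Finite.one_lt_card h.big
  rw [← h.card_one hq] at h1 h2
  have hT : TT H ≠ ⊥ := fun e => by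
    rw [e, Subgroup.card_bot] at h1
    omega
  exact ⟨h.cc, rfl, h.idx hT, h.prime, h.free, by rw [card_pts, h.rank, h.card_one hq, one_mul],
    one_pos, h1, fun a ha => by have := h.fix a ha; omega, h.not_normal hT⟩

theorem Hyp.sit_n (h : Hyp H n) (hq : n ∣ Nat.card F - 1) :
    Sit (Pts F K) (TT H) n (Nat.card (TT H)) n := by
  have h0 : 1 < Nat.card F := Finite.one_lt_card
  obtain ⟨h1, h2, -⟩ := num_n (q := Nat.card F)
    (by have := Nat.le_of_dvd (by omega) hq; omega) h.big (h.card_n hq)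
  have hT : TT H ≠ ⊥ := fun e => by
    rw [e, Subgroup.card_bot] at h1
    omega
  exact ⟨h.cc, rfl, h.idx hT, h.prime, h.free, by rw [card_pts, h.rank, h.card_n hq],
    h.prime.pos, h1, fun a ha => by have := h.fix a ha; omega, h.not_normal hT⟩

end CfsgLib.Sgr
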