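import Cfsg.Agent.Lib.Exc.Leonard
import Cfsg.Agent.Lib.Char.PermChar

/-!
Singer normaliser: vocabulary for the abstract group part.
-/

set_option autoImplicit false

namespace CfsgLib.Sgr

variable {G : Type*} [Group G]

/-- `T` is the centraliser of each of its non-identity elements -/
def IsCC (T : Subgroup G) : Prop := ∀ t ∈ T, t ≠ 1 → Subgroup.centralizer ({t} : Set G) = T

/-- no proper normal subgroup contains `T` -/
def Gen (T : Subgroup G) : Prop := ∀ K : Subgroup G, K.Normal → T ≤ K → K = ⊤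

/-- constant on the non-identity elements of `T` -/
def Cst (T : Subgroup G) (f : G → ℂ) : Prop := ∀ t ∈ T, t ≠ 1 → ∀ t' ∈ T, t' ≠ 1 → f t = f t'

/-- the permutation character -/
noncomputable def perm (Ω : Type*) [MulAction G Ω] : G → ℂ :=
  fun a => (Nat.card (MulAction.fixedBy Ω a) : ℂ)

/-- the suborbit: images of `y` under the stabiliser of `x` -/
def sub2 (G : Type*) [Group G] {Ω : Type*} [MulAction G Ω] (x y : Ω) : Set Ω :=
  {z | ∃ a : G, a • x = x ∧ a • y = z}

/-- the orbital of `(x, y)` contains the pair `(z, t • z)` for some `z` -/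
def Hit {Ω : Type*} [MulAction G Ω] (t : G) (x y : Ω) : Prop := ∃ a : G, a • y = t • a • x

/-- The standing hypothesis on `G`, `Ω`, `T`. -/
structure Sit (Ω : Type*) [MulAction G Ω] (T : Subgroup G) (n m g : ℕ) : Prop where
  cc : IsCC T
  card_T : Nat.card T = m
  idx : T.relIndex (Subgroup.normalizer (T : Set G)) = n
  prime : n.Prime
  free : ∀ t ∈ T, t ≠ 1 → ∀ x : Ω, t • x ≠ x
  card_Ω : Nat.card Ω = g * m
  g_pos : 0 < g
  big : (g * n) ^ 2 + 1 < m
  fix : ∀ a : G, a ≠ 1 → Nat.card (MulAction.fixedBy Ω a) + g < m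
  not_normal : ¬ T.Normal

theorem IsCC.comm {T : Subgroup G} (h : IsCC T) {s t : G} (hs : s ∈ T) (ht : t ∈ T) :
    s * t = t * s := by
  by_cases h1 : t = 1
  · simp [h1]
  · exact Subgroup.mem_centralizer_singleton_iff.1 (by rw [h t ht h1]; exact hs)

theorem IsCC.mem {T : Subgroup G} (h : IsCC T) {t a : G} (ht : t ∈ T) (h1 : t ≠ 1)
    (ha : a * t = t * a) : a ∈ T := by
  rw [← h t ht h1]; exact Subgroup.mem_centralizer_singleton_iff.2 ha

theorem IsCC.conj_mem {T : Subgroup G} (h : IsCC T) {t a : G} (ht : t ∈ T) (h1 : t ≠ 1)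
    (ha : a * t * a⁻¹ ∈ T) {s : G} (hs : s ∈ T) : a * s * a⁻¹ ∈ T := by
  refine h.mem ha (fun e => h1 (by simpa using e)) ?_
  calc _ = a * (s * t) * a⁻¹ := by group
    _ = _ := by rw [h.comm hs ht]; group

/-- trivial intersection -/
theorem IsCC.ti {T : Subgroup G} (h : IsCC T) {t a : G} (ht : t ∈ T) (h1 : t ≠ 1)
    (ha : a * t * a⁻¹ ∈ T) : a ∈ Subgroup.normalizer (T : Set G) := by
  refine Subgroup.mem_normalizer_iff.2 fun s => ⟨h.conj_mem ht h1 ha, fun hs => ?_⟩
  have := h.conj_mem (a := a⁻¹) ha (fun e => h1 (by simpa using e)) (by simpa [mul_assoc] using ht) hs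
  simpa [mul_assoc] using this

end CfsgLib.Sgr
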