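import Cfsg.Agent.Lib.Sgr.PDefs

/-!
Singer normaliser, package KER: the kernel lemma.
-/

set_option autoImplicit false

namespace CfsgLib.Sgr

open MvPolynomial

variable {K : Type*} [Field K] {n : ℕ}

theorem evq_monomial (q : ℕ) (x a : K) (w : Fin n →₀ ℕ) :
    evq n q x (monomial w a) = a * x ^ ∑ j, w j * q ^ (j : ℕ) := by
  rw [evq, eval_monomial, Finsupp.prod_fintype _ _ (by simp), ← Finset.prod_pow_eq_pow_sum]
  simp only [← pow_mul, mul_comm]

theorem ker_red [Finite K] {q : ℕ} (hq : 2 ≤ q) (hK : Nat.card K = q ^ n) (w : Fin n →₀ ℕ) :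
    ∃ w' : Fin n →₀ ℕ, (∀ j, w' j < q) ∧ (∀ x : K, evq n q x (monomial w' 1) = evq n q x (monomial w 1)) ∧
      (w' = w ∨ ∑ j, w' j < ∑ j, w j ∧ ∃ l, q ≤ w l) := by
  induction hd : ∑ j, w j using Nat.strong_induction_on generalizing w with
  | _ d ih =>
    by_cases h : ∀ j, w j < q
    · exact ⟨w, h, fun _ => rfl, .inl rfl⟩
    push Not at h
    obtain ⟨l, hl⟩ := h
    obtain ⟨l', hl'⟩ : ∃ l' : Fin n, ∀ x : K, x ^ q ^ (l' : ℕ) = (x ^ q ^ (l : ℕ)) ^ q := by
      simp only [← pow_mul, ← pow_succ]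
      by_cases h : l + 1 < n
      · exact ⟨⟨_, h⟩, fun _ => rfl⟩
      have := Fintype.ofFinite K
      exact ⟨⟨0, l.pos⟩, fun x => by
        rw [show l + 1 = n by omega, ← hK, Nat.card_eq_fintype_card, FiniteField.pow_card, pow_zero, pow_one]⟩
    obtain ⟨v, rfl⟩ := exists_add_of_le (Finsupp.single_le_iff.2 hl)
    have e : ∀ a k, ∑ j, (Finsupp.single a k + v :) j = k + ∑ j, v j := fun a k => by
      simp [Finset.sum_add_distrib, Finsupp.single_apply]
    have lt : ∑ j, (Finsupp.single l' 1 + v :) j < d := by rw [← hd, e, e]; omega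
    obtain ⟨w', h1, h2, h3⟩ := ih _ lt _ rfl
    refine ⟨w', h1, fun x => ?_, .inr ⟨h3.elim (fun e => e ▸ lt) fun e => e.1.trans lt, l, hl⟩⟩
    rw [h2, monomial_single_add, monomial_single_add, map_mul, map_mul, map_pow, map_pow, evq_X, evq_X, hl', pow_one]

/-- A polynomial of degree `≤ d` vanishing on all `(x, x^q, …)` has no reduced monomial of
degree `d`. -/
theorem ker [Finite K] {q : ℕ} (hq : 2 ≤ q) (hK : Nat.card K = q ^ n)
    {P : MvPolynomial (Fin n) K} {d : ℕ} (hd : ∀ w ∈ P.support, ∑ j, w j ≤ d)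
    (h0 : ∀ x : K, evq n q x P = 0) {u : Fin n →₀ ℕ} (hu : u ∈ P.support) (hud : ∑ j, u j = d) :
    ∃ l, q ≤ u l := by
  by_contra hn
  choose r r1 r2 r3 using ker_red hq hK
  have ru := (r3 u).resolve_right fun h => hn h.2
  let E : (Fin n →₀ ℕ) → Fin (q ^ n) := fun w => finFunctionFinEquiv fun j => ⟨r w j, r1 w j⟩
  have hF : ∑ w ∈ P.support, Polynomial.monomial (E w) (coeff w P) = 0 := by
    refine Polynomial.eq_zero_of_forall_eval_zero_of_natDegree_lt_card _ (fun x => ?_) ?_
    · rw [← h0 x, Polynomial.eval_finsetSum]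
      conv_rhs => rw [P.as_sum, map_sum]
      refine Finset.sum_congr rfl fun w _ => ?_
      have := r2 w x
      rw [evq_monomial, evq_monomial, one_mul, one_mul] at this
      rw [Polynomial.eval_monomial, evq_monomial, ← this]; rfl
    · rw [← Nat.cast_card, hK, Nat.cast_lt, Nat.lt_iff_le_pred (E u).pos]
      exact Polynomial.natDegree_sum_le_of_forall_le _ _ fun w _ =>
        (Polynomial.natDegree_monomial_le _).trans (Nat.le_sub_one_of_lt (E w).2)
  have := congrArg (Polynomial.coeff · (E u)) hF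
  simp only [Polynomial.finsetSum_coeff, Polynomial.coeff_monomial, Polynomial.coeff_zero] at this
  rw [Finset.sum_eq_single_of_mem u hu fun w hw wu => if_neg fun e => wu ?_, if_pos rfl] at this
  · exact mem_support_iff.1 hu this
  have e1 : r w = u := ru ▸ Finsupp.ext fun j =>
    congrArg Fin.val (congrFun (finFunctionFinEquiv.injective (Fin.ext e)) j)
  exact (r3 w).elim (fun e => e.symm.trans e1) fun e => absurd (e.1.trans_le (hd w hw)) (by rw [e1, hud]; omega)

/-- all monomials of `df M t` have degree `n t` -/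
theorem deg_df (M : Matrix (Fin n) (Fin n) K) (t : ℕ) {u : Fin n →₀ ℕ}
    (hu : u ∈ (df M t).support) : ∑ j, u j = n * t := by
  have h : ∀ f : Fin n → MvPolynomial (Fin n) K, (∀ j, (f j).IsHomogeneous 1) →
      ((∏ j, f j) ^ t).IsHomogeneous (n * t) := fun f hf => by
    simpa using (IsHomogeneous.prod Finset.univ f (fun _ => 1) fun j _ => hf j).pow t
  have h1 : (df M t).IsHomogeneous (n * t) := by
    rw [df, NN, map_prod]
    exact (h _ fun j => sub_X M j ▸ IsHomogeneous.sum _ _ _ fun l _ => isHomogeneous_C_mul_X _ _).sub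
      (h _ (isHomogeneous_X K))
  rw [← Finsupp.degree_eq_sum, Finsupp.degree_eq_weight_one]
  exact h1 (mem_support_iff.1 hu)

theorem df_mul_pow (p : ℕ) [Fact p.Prime] [CharP K p] (M : Matrix (Fin n) (Fin n) K) (t a : ℕ) :
    df M (p ^ a * t) = df M t ^ p ^ a := by
  rw [df, df, sub_pow_char_pow, ← pow_mul, ← pow_mul, mul_comm]

theorem coeff_pow_char (p : ℕ) [Fact p.Prime] [CharP K p] (R : MvPolynomial (Fin n) K) (a : ℕ)
    (u : Fin n →₀ ℕ) : coeff (p ^ a • u) (R ^ p ^ a) = coeff u R ^ p ^ a := by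
  rw [← map_iterateFrobenius_expand p, coeff_map, coeff_expand_smul _ (pow_ne_zero a (Fact.out : p.Prime).ne_zero),
    iterateFrobenius_def]

theorem mem_support_pow_char (p : ℕ) [Fact p.Prime] [CharP K p] (R : MvPolynomial (Fin n) K)
    (a : ℕ) {w : Fin n →₀ ℕ} :
    w ∈ (R ^ p ^ a).support ↔ ∃ u ∈ R.support, w = p ^ a • u := by
  rw [← map_iterateFrobenius_expand p, support_map_of_injective _ (RingHom.injective _),
    support_expand _ (pow_ne_zero a (Fact.out : p.Prime).ne_zero), Finset.mem_image]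
  simp only [eq_comm]

end CfsgLib.Sgr
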