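import Cfsg.Agent.Lib.Sgr.GDefs

/-!
Singer normaliser, package LEO: Brauer–Leonard for a CC-subgroup.
-/

set_option autoImplicit false

namespace CfsgLib.Sgr

open Cfsg CfsgLib.Char
open scoped ComplexConjugate

variable {G : Type*} [Group G] [Finite G] {T : Subgroup G}

theorem Gen.exists_ne (hgen : Gen T) {ζ : G → ℂ} (hζ : IsIrrCharacter G ζ)
    (h1 : ζ ≠ fun _ => 1) : ∃ u ∈ T, ζ u ≠ ζ 1 := by
  by_contra! h
  exact h1 (irr_eq_one_of_charKer_eq_top hζ (hgen _ (charKer_normal (isClassFunction_of_isIrr hζ))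
    fun u hu => (mem_charKer (isCharacter_of_isIrr hζ)).2 (h u hu)))

open CfsgLib.Exc in

theorem leo (hcc : IsCC T) (hgen : Gen T) {χ : G → ℂ} (hχ : IsIrrCharacter G χ)
    (hχ1 : χ ≠ fun _ => 1) {x : ℕ} (hx : χ 1 = x) (hdeg : x ^ 2 + 1 < Nat.card T) :
    Subgroup.normalizer (T : Set G) ≤ T := by
  classical
  have := Fintype.ofFinite G
  set N := Subgroup.normalizer (T : Set G) with hN
  let C := T.subgroupOf N
  have hPC : C ≤ C := le_rfl
  have hcent : ∀ u ∈ C, ∀ c ∈ C, c * u = u * c := fun u hu c hc => Subtype.ext (hcc.comm hc hu)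
  have hfpf : ∀ u ∈ C, u ≠ 1 → ∀ g, g * u = u * g → g ∈ C := fun u hu h1 g hg =>
    hcc.mem (a := g) hu (fun h => h1 (Subtype.ext h)) (congrArg Subtype.val hg)
  have hcP : Nat.card C = Nat.card T :=
    Nat.card_congr (Subgroup.subgroupOfEquivOfLe Subgroup.le_normalizer).toEquiv
  have hm : C.relIndex C = 1 := Subgroup.relIndex_self C
  have hcop : (Nat.card C).Coprime (C.relIndex C) := by rw [hm]; exact Nat.coprime_one_right _
  have hker : ∀ ζ : G → ℂ, IsIrrCharacter G ζ → ζ ≠ (fun _ => 1) → ∃ u : C, ζ (u : N) ≠ ζ 1 := by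
    intro ζ hζ h1
    obtain ⟨u, hu, h⟩ := hgen.exists_ne hζ h1
    exact ⟨⟨⟨u, Subgroup.le_normalizer hu⟩, hu⟩, h⟩
  have hχc := isCharacter_of_isIrr hχ
  have hχN := isCharacter_restrict N hχc
  have hχC : IsCharacter C fun c : C => χ (c : N) := isCharacter_restrict C hχN
  have hs : C.index ≤ x := by
    obtain ⟨φ₀, ν₀, hφ₀, h₀, hν₀, hi₀⟩ := exists_over_ne_one hPC hcent hχC (hker χ hχ hχ1)
    obtain ⟨Ξ, hΞ, e⟩ := exists_eq_add_of_inner_ne_zero hχN (h₀.isIrr_indFun hfpf hφ₀ hν₀)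
      (by rwa [classInner_indFun_right C _ (isClassFunction_of_isCharacter hχN)])
    obtain ⟨d, hd, hd'⟩ := exists_irr_one_eq_nat hφ₀
    obtain ⟨k, hk⟩ := exists_char_one_eq_nat hΞ
    have h1 := congrFun e 1
    rw [Pi.add_apply, indFun_one, hd', hk, OneMemClass.coe_one, hx] at h1
    have h2 : x = C.index * d + k := by exact_mod_cast h1
    nlinarith
  by_cases hnorm : classInner (fun c : C => χ (c : N)) (fun c : C => χ (c : N)) = 1
  · have h4 : x = 1 := by
      have : IsMulCommutative C := ⟨⟨fun a b => Subtype.ext (hcent _ b.2 _ a.2)⟩⟩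
      have h3 := irr_one_eq_one_of_comm (isIrr_of_inner_self_eq_one hχC hnorm)
      simp only [OneMemClass.coe_one, hx] at h3
      exact_mod_cast h3
    have h5 : C.index = 1 := le_antisymm (h4 ▸ hs) (Nat.pos_of_ne_zero C.index_ne_zero_of_finite)
    exact Subgroup.subgroupOf_eq_top.1 (Subgroup.index_eq_one.1 h5)
  exfalso
  have hΘ : IsCharacter G fun g => χ g * conj (χ g) := isCharacter_mul hχc (isCharacter_conj hχc)
  have hΘ1 : classInner (fun g => χ g * conj (χ g)) (fun _ => 1) = 1 := by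
    rw [classInner_mul_conj_one, classInner_irr_self hχ]
  obtain ⟨ζ, hζ, hζΘ, hζC⟩ := exists_irr_between (N.subtype.comp C.subtype)
    (isClassFunction_sub (isClassFunction_of_isCharacter hΘ) (isClassFunction_const 1))
    (θ := fun _ => 1) (by
      rw [show (fun a : C => ((fun g => χ g * conj (χ g)) - fun _ => 1 : G → ℂ)
        (N.subtype.comp C.subtype a)) = (fun c : C => χ (c : N) * conj (χ (c : N))) - fun _ => 1
        from rfl, classInner_sub_left, classInner_mul_conj_one, classInner_one_one]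
      exact sub_ne_zero.2 hnorm)
  have hζ1 : ζ ≠ fun _ => 1 := fun e => hζΘ (by
    rw [e, classInner_sub_left, hΘ1, classInner_one_one, sub_self])
  rw [classInner_sub_left, classInner_irr_of_ne isIrr_one hζ hζ1.symm, sub_zero] at hζΘ
  have : IsMulCommutative C := ⟨⟨fun a b => Subtype.ext (hcent _ b.2 _ a.2)⟩⟩
  have hcard : Nat.card (C →* ℂˣ) = Nat.card T := by
    let _ : CommGroup C := { (inferInstance : Group C) with mul_comm := mul_comm' }
    rw [CommGroup.card_monoidHom_of_hasEnoughRootsOfUnity, hcP]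
  have : Finite (C →* ℂˣ) := Nat.finite_of_card_ne_zero (by rw [hcard]; omega)
  have := Fintype.ofFinite (C →* ℂˣ)
  have hS : (Finset.univ.erase (1 : C →* ℂˣ)).card + 1 = Nat.card T := by
    rw [Finset.card_erase_add_one (Finset.mem_univ _), Finset.card_univ,
      ← Nat.card_eq_fintype_card, hcard]
  let Q : (C →* ℂˣ) → Prop := fun ν =>
    classInner (fun u : C => χ (u : N) * conj (χ (u : N))) (fun u => (ν u : ℂ)) = 0
  have h1 := card_constituents_mul_conj (isCharacter_restrict C hχN) hx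
    ((Finset.univ.erase 1).filter fun ν => ¬ Q ν) fun ν hν =>
      ⟨Finset.ne_of_mem_erase (Finset.mem_filter.1 hν).1, (Finset.mem_filter.1 hν).2⟩
  have h2 := Finset.card_filter_add_card_filter_not (s := Finset.univ.erase 1) Q
  refine false_of_small_support N hPC hcent hfpf hcop
    {c | c ∈ T ∧ c ≠ 1} (fun y => ?_) (fun g hg t ht ht' => ?_)
    hζ hζ1 (hker ζ hζ hζ1) hζC ((Finset.univ.erase 1).filter Q) (Finset.univ.erase 1)
    (Finset.filter_subset _ _) (by simp) (fun ν hν => ?_) (by nlinarith) (by nlinarith)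
  · rw [hm, pow_one, Ne, Subtype.ext_iff]
    rfl
  · exact absurd (hcc.ti ht.1 ht.2 ht'.1) hg
  · by_contra hne
    exact inner_comp_ne_zero (N.subtype.comp C.subtype) hΘ hζ hζΘ
      (isCharacter_of_isIrr (isIrr_unitsHom ν)) hne (Finset.mem_filter.1 hν).2

theorem leo_inner {A : Type*} [Group A] [Fintype A] {f : A → ℂ} {b : ℂ}
    (hb : ∀ t, t ≠ 1 → f t = b) (ψ : A → ℂ) :
    Nat.card A * classInner f ψ = (f 1 - b) * conj (ψ 1) + b * conj (∑ t, ψ t) := by
  classical
  rw [card_mul_classInner, map_sum, Finset.mul_sum,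
    ← Finset.add_sum_erase _ _ (Finset.mem_univ (1 : A)),
    ← Finset.add_sum_erase _ _ (Finset.mem_univ (1 : A)),
    Finset.sum_congr rfl fun t ht => by rw [hb t (Finset.ne_of_mem_erase ht)]]
  ring

/-- (β) -/
theorem deg_ge (hcc : IsCC T) (hgen : Gen T) (hT : 1 < Nat.card T) {χ : G → ℂ}
    (hχ : IsIrrCharacter G χ) (hχ1 : χ ≠ fun _ => 1) (hc : Cst T χ) {x : ℕ} (hx : χ 1 = x) :
    Nat.card T ≤ x + 1 := by
  classical
  have := Fintype.ofFinite G
  have : IsMulCommutative T := ⟨⟨fun a b => Subtype.ext (hcc.comm a.2 b.2)⟩⟩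
  obtain ⟨u, hu, hu'⟩ := hgen.exists_ne hχ hχ1
  have hu1 : u ≠ 1 := fun e => hu' (by rw [e])
  have hb : ∀ t : T, t ≠ 1 → (fun t : T => χ t) t = χ u := fun t ht =>
    hc t t.2 (fun e => ht (Subtype.ext e)) u hu hu1
  have hf := isCharacter_restrict T (isCharacter_of_isIrr hχ)
  have hfin : Finite (IrrCharacter T) := finite_irr
  have hnt : Nontrivial (IrrCharacter T) :=
    Finite.one_lt_card_iff_nontrivial.1 (by rw [card_irr_of_comm]; exact hT)
  obtain ⟨ψ, hψ⟩ := exists_ne (irrOne T)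
  have hψ1 : (ψ : T → ℂ) ≠ fun _ => 1 := fun e => hψ (Subtype.ext e)
  obtain ⟨a, ha⟩ := exists_classInner_eq_nat hf (irr_isCharacter ψ)
  obtain ⟨a', ha'⟩ := exists_classInner_eq_nat hf (isCharacter_one (G := T))
  have h1 := leo_inner hb ψ
  have h2 := leo_inner hb fun _ => 1
  rw [ha, irr_one_eq_one_of_comm ψ.2, sum_irr_eq_zero ψ.2 hψ1] at h1
  rw [ha'] at h2
  simp only [map_one, mul_one, map_zero, mul_zero, add_zero, OneMemClass.coe_one, hx,
    Finset.sum_const, Finset.card_univ, ← Nat.card_eq_fintype_card, nsmul_eq_mul,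
    map_natCast] at h1 h2
  have hm : (Nat.card T : ℂ) ≠ 0 := natCard_ne_zero
  have h3 : χ u = a' - a := mul_left_cancel₀ hm (by linear_combination h1 - h2)
  have h4 : (x + a : ℂ) = Nat.card T * a + a' := by rw [h1, h3]; ring
  have h5 : x + a = Nat.card T * a + a' := by exact_mod_cast h4
  have h6 : a ≠ 0 := by
    rintro rfl
    apply hu'
    rw [hx]
    linear_combination h1
  obtain ⟨k, rfl⟩ := Nat.exists_eq_succ_of_ne_zero h6
  nlinarith

end CfsgLib.Sgr
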