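import Cfsg.Agent.Lib.Sgr.Geo

/-!
Singer normaliser, package TRL: translations on a line.
-/

set_option autoImplicit false

namespace CfsgLib.Sgr

open Module CfsgLib.CK

variable {F V : Type*} [Field F] [Finite F] [AddCommGroup V] [Module F V] [Finite V]

theorem trl_cancel (E : AddSubgroup F) {r c : F} (hr : r ≠ 0) (hE : ∀ b ∈ E, r * b ∈ E)
    (hc : r * c ∈ E) : c ∈ E := by
  obtain ⟨e, he⟩ := (Finite.surjective_of_injective (f := fun b : E => (⟨r * b, hE b b.2⟩ : E))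
    fun a b h => Subtype.ext (mul_left_cancel₀ hr (congrArg Subtype.val h))) ⟨_, hc⟩
  exact mul_left_cancel₀ hr (congrArg Subtype.val he) ▸ e.2

omit [Finite F] in
theorem addSubgroup_eq_top [Finite F] {n : ℕ} (hp : n.Prime) {ζ : F} (hζ : IsPrimitiveRoot ζ n)
    (E : AddSubgroup F) (hE : ∀ b ∈ E, ζ * b ∈ E) (hc : Nat.card F < (n + 1) * Nat.card E) :
    E = ⊤ := by
  by_contra hn
  obtain ⟨c, hcE⟩ : ∃ c, c ∉ E := by
    by_contra k
    push Not at k
    exact hn ((AddSubgroup.eq_top_iff' E).2 k)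
  let s : Option (Fin n) → F := fun o => o.elim 0 fun i => ζ ^ (i : ℕ)
  have hs : ∀ o, ∀ b ∈ E, s o * b ∈ E := by
    rintro (_ | ⟨i, hi⟩) b hb
    · simp [s]
    · show ζ ^ i * b ∈ E
      clear hi
      induction i with
      | zero => simpa using hb
      | succ i ih => rw [pow_succ', mul_assoc]; exact hE _ ih
  have hi : Function.Injective s := by
    have h0 : ∀ i : ℕ, ζ ^ i ≠ 0 := fun i => pow_ne_zero _ (hζ.ne_zero hp.ne_zero)
    rintro (_ | i) (_ | j) e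
    · rfl
    · exact absurd e.symm (h0 j)
    · exact absurd e (h0 i)
    · exact congrArg some (Fin.ext (hζ.pow_inj i.2 j.2 e))
  have := Nat.card_le_card_of_injective (fun x : Option (Fin n) × E => s x.1 * c + x.2) (by
    rintro ⟨o, e⟩ ⟨o', e'⟩ k
    have k' : s o * c + e = s o' * c + e' := k
    have h1 : o = o' := by
      by_contra h1
      refine hcE (trl_cancel E (sub_ne_zero.2 (hi.ne h1))
        (fun b hb => by rw [sub_mul]; exact E.sub_mem (hs o b hb) (hs o' b hb)) ?_)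
      have : (s o - s o') * c = e' - e := by linear_combination k'
      exact this ▸ E.sub_mem e'.2 e.2
    subst h1
    exact Prod.ext rfl (Subtype.ext (add_left_cancel k')))
  rw [Nat.card_prod, Finite.card_option, Nat.card_eq_fintype_card (α := Fin n),
    Fintype.card_fin] at this
  omega

theorem trl {H : Subgroup (V ≃ₗ[F] V)} {u v : V} (hu : u ≠ 0) (hv : v ≠ 0)
    (huv : (F ∙ u) ≠ F ∙ v) {a : V ≃ₗ[F] V} (ha : a ∈ H) {α β : F} (hau : a u = α • u)
    (hav : a v = β • v) {n : ℕ} (hp : n.Prime) (hζ : IsPrimitiveRoot (α / β) n)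
    (hc : Nat.card F <
      (n + 1) * (orb (Stab (Stab H (F ∙ u)) ((F ∙ u) ⊔ F ∙ v)) (F ∙ v)).ncard) :
    LT (lin F V) H (F ∙ u) ((F ∙ u) ⊔ F ∙ v) := by
  have vu : v ∉ F ∙ u := fun h => huv ((lin F V).eq_of_rk_le
    ((Submodule.span_singleton_le_iff_mem _ _).2 h) (by rw [rk_span hu, rk_span hv])).symm
  have dec : ∀ w ∈ (F ∙ u) ⊔ F ∙ v, w ∉ F ∙ u → ∃ ν c : F, ν ≠ 0 ∧ w = ν • (v + c • u) := by
    intro w hw hn
    obtain ⟨y, hy, z, hz, rfl⟩ := Submodule.mem_sup.1 hw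
    obtain ⟨s, rfl⟩ := Submodule.mem_span_singleton.1 hy
    obtain ⟨t, rfl⟩ := Submodule.mem_span_singleton.1 hz
    have ht : t ≠ 0 := by rintro rfl; exact hn (by simpa using hy)
    exact ⟨t, s / t, ht, by rw [smul_add, smul_smul, mul_div_cancel₀ _ ht, add_comm]⟩
  have α0 : α ≠ 0 := by rintro rfl; exact hu (a.map_eq_zero_iff.1 (by rw [hau, zero_smul]))
  have β0 : β ≠ 0 := by rintro rfl; exact hv (a.map_eq_zero_iff.1 (by rw [hav, zero_smul]))
  have inv : ∀ (g : V ≃ₗ[F] V) {x y : V}, g x = y → g⁻¹ y = x := fun g x y e => by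
    rw [← e]; exact g.symm_apply_apply x
  have au : a⁻¹ u = α⁻¹ • u := inv a (by rw [map_smul, hau, smul_smul, inv_mul_cancel₀ α0, one_smul])
  have av : a⁻¹ v = β⁻¹ • v := inv a (by rw [map_smul, hav, smul_smul, inv_mul_cancel₀ β0, one_smul])
  have conj : ∀ (g : V ≃ₗ[F] V) {μ ν c : F}, g u = μ • u → g v = ν • (v + c • u) →
      (a * g * a⁻¹) u = μ • u ∧ (a * g * a⁻¹) v = ν • (v + (α / β * c) • u) := by
    intro g μ ν c h1 h2
    simp only [LinearEquiv.mul_apply, au, av, map_smul, map_add, h1, h2, hau, hav]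
    constructor <;> match_scalars <;> field_simp
  let E : AddSubgroup F :=
    { carrier := {b | ∃ g ∈ H, g u = u ∧ g v = v + b • u}
      zero_mem' := ⟨1, one_mem _, rfl, by simp⟩
      add_mem' := by
        rintro b b' ⟨g, hg, h1, h2⟩ ⟨g', hg', h1', h2'⟩
        refine ⟨g * g', mul_mem hg hg', by rw [LinearEquiv.mul_apply, h1', h1], ?_⟩
        rw [LinearEquiv.mul_apply, h2', map_add, map_smul, h1, h2, add_smul, add_assoc]
      neg_mem' := by
        rintro b ⟨g, hg, h1, h2⟩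
        exact ⟨g⁻¹, inv_mem hg, inv g h1, inv g (by rw [map_add, map_smul, h1, h2]; simp)⟩ }
  have hE : ∀ b ∈ E, α / β * b ∈ E := by
    rintro b ⟨g, hg, h1, h2⟩
    obtain ⟨h3, h4⟩ := conj g (μ := 1) (ν := 1) (c := b) (by rw [h1, one_smul]) (by rw [h2, one_smul])
    exact ⟨_, mul_mem (mul_mem ha hg) (inv_mem ha), by rw [h3, one_smul], by rw [h4, one_smul]⟩
  have sp : ∀ {ν : F} (w : V), ν ≠ 0 → (F ∙ ν • w) = F ∙ w := fun w h =>
    Submodule.span_singleton_smul_eq (Ne.isUnit h) w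
  have hle : (orb (Stab (Stab H (F ∙ u)) ((F ∙ u) ⊔ F ∙ v)) (F ∙ v)).ncard ≤ Nat.card E := by
    refine le_trans (Set.ncard_le_ncard ?_)
      (Set.ncard_image_le (f := fun b : F => F ∙ (v + b • u)) (s := E))
    rintro _ ⟨g, hg, rfl⟩
    have gu := (mem_Stab.1 hg.1).2
    obtain ⟨μ, hμ⟩ := Submodule.mem_span_singleton.1
      (apply_mem_of_smul_eq gu (Submodule.mem_span_singleton_self u))
    obtain ⟨ν, c, ν0, hν⟩ := dec (g v) (apply_mem_of_smul_eq (mem_Stab.1 hg).2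
      (Submodule.mem_sup_right (Submodule.mem_span_singleton_self v)))
      fun h => vu (apply_mem_smul.1 (gu.symm ▸ h : g v ∈ g • (F ∙ u)))
    obtain ⟨h3, h4⟩ := conj g hμ.symm hν
    have μ0 : μ ≠ 0 := by rintro rfl; exact hu (g.map_eq_zero_iff.1 (by rw [← hμ, zero_smul]))
    have gu' : g⁻¹ u = μ⁻¹ • u :=
      inv g (by rw [map_smul, ← hμ, smul_smul, inv_mul_cancel₀ μ0, one_smul])
    have gv' : g⁻¹ v = ν⁻¹ • v - (c * μ⁻¹) • u := inv g (by
      rw [map_sub, map_smul, map_smul, ← hμ, hν]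
      match_scalars <;> field_simp
      ring)
    refine ⟨c, trl_cancel E (r := α / β - 1) (sub_ne_zero.2 (hζ.ne_one hp.one_lt))
      (fun b hb => by rw [sub_mul, one_mul]; exact E.sub_mem (hE b hb) hb)
      ⟨a * g * a⁻¹ * g⁻¹, mul_mem (mul_mem (mul_mem ha hg.1.1) (inv_mem ha)) (inv_mem hg.1.1),
        ?_, ?_⟩, by rw [smul_span, hν, sp _ ν0]⟩
    · rw [LinearEquiv.mul_apply, gu', map_smul, h3, smul_smul, inv_mul_cancel₀ μ0, one_smul]
    · rw [LinearEquiv.mul_apply, gv', map_sub, map_smul, map_smul, h3, h4]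
      match_scalars <;> field_simp
  have hT := addSubgroup_eq_top hp hζ E hE (hc.trans_le (Nat.mul_le_mul_left _ hle))
  have pt : ∀ y ∈ {y | (lin F V).rk y = 1 ∧ y ≤ (F ∙ u) ⊔ F ∙ v ∧ y ≠ F ∙ u},
      ∃ c : F, y = F ∙ (v + c • u) := by
    rintro y ⟨h1, h2, h3⟩
    obtain ⟨w, hw, rfl⟩ := exists_of_rk h1
    obtain ⟨ν, c, ν0, e⟩ := dec w ((Submodule.span_singleton_le_iff_mem _ _).1 h2) fun h => h3
      ((lin F V).eq_of_rk_le ((Submodule.span_singleton_le_iff_mem _ _).2 h) (by rw [h1, rk_span hu]))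
    exact ⟨c, by rw [e, sp _ ν0]⟩
  intro y hy y' hy'
  obtain ⟨c, rfl⟩ := pt y hy
  obtain ⟨c', rfl⟩ := pt y' hy'
  obtain ⟨g, hg, h1, h2⟩ : c' - c ∈ E := hT ▸ AddSubgroup.mem_top _
  refine ⟨g, mem_Stab.2 ⟨mem_Stab.2 ⟨hg, by rw [smul_span, h1]⟩, smul_eq_of_le fun w hw => ?_⟩, ?_⟩
  · obtain ⟨y, hy, z, hz, rfl⟩ := Submodule.mem_sup.1 hw
    obtain ⟨s, rfl⟩ := Submodule.mem_span_singleton.1 hy
    obtain ⟨t, rfl⟩ := Submodule.mem_span_singleton.1 hz
    have m1 : u ∈ (F ∙ u) ⊔ F ∙ v := Submodule.mem_sup_left (Submodule.mem_span_singleton_self u)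
    have m2 : v ∈ (F ∙ u) ⊔ F ∙ v := Submodule.mem_sup_right (Submodule.mem_span_singleton_self v)
    rw [map_add, map_smul, map_smul, h1, h2]
    exact add_mem (Submodule.smul_mem _ _ m1)
      (Submodule.smul_mem _ _ (add_mem m2 (Submodule.smul_mem _ _ m1)))
  · rw [smul_span, map_add, map_smul, h1, h2, add_assoc, ← add_smul, sub_add_cancel]

end CfsgLib.Sgr
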