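import Cfsg.Agent.Lib.Sgr.Br
import Cfsg.Agent.Lib.Sgr.Trl

/-!
Singer normaliser, package LINES: 2-transitivity when `n ∣ q - 1`.
-/

set_option autoImplicit false

namespace CfsgLib.Sgr

open Module CfsgLib.CK CfsgLib.ClMax

variable {F K : Type*} [Field F] [Finite F] [Field K] [Finite K] [Algebra F K]
  {H : Subgroup (K ≃ₗ[F] K)} {n : ℕ}

theorem li_le (hq : n ∣ Nat.card F - 1) : n + 1 ≤ Nat.card F := by
  have hq2 : 1 < Nat.card F := Finite.one_lt_card
  have := Nat.le_of_dvd (by omega) hq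
  omega

omit [Finite F] [Finite K] in
theorem li_mul_span {a : K ≃ₗ[F] K} {t : K} (h : ∀ x, a x = t * x) (v : K) :
    a • (F ∙ v) = F ∙ (t * v) := by rw [smul_span, h]

/-- every line contains two points of the same class -/
theorem exists_pair (hn : finrank F K = n) (h0 : 0 < n) (hq : n ∣ Nat.card F - 1)
    {l : Submodule F K} (hl : finrank F l = 2) : ∃ x : Submodule F K, ∃ t ∈ T0 F K,
      finrank F x = 1 ∧ t • x ≠ x ∧ x ⊔ t • x = l := by
  classical
  have := Fintype.ofFinite F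
  have hle := li_le hq
  obtain ⟨e, he⟩ := hq
  have he' : n * e + 1 = Nat.card F := by omega
  have hv : ∀ x : Submodule F K, (lin F K).Pt ⊥ l x → ∃ v, v ≠ 0 ∧ x = F ∙ v := fun x hx =>
    exists_of_rk ((lin F K).pt_bot.1 hx).2
  choose! v hv0 hv using hv
  have hc : (Polynomial.nthRootsFinset n (1 : F) : Set F).ncard <
      {x | (lin F K).Pt ⊥ l x}.ncard := by
    rw [(lin F K).ncard_pt bot_le, PG.d_bot, lin_rk, hl, PG.θ_two, lin_q, Set.ncard_coe_finset]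
    have : (Polynomial.nthRootsFinset n (1 : F)).card ≤ n :=
      (Multiset.toFinset_card_le _).trans (Polynomial.card_nthRoots n 1)
    omega
  obtain ⟨x, hx, y, hy, hxy, e1⟩ := Set.exists_ne_map_eq_of_ncard_lt_of_maps_to hc
    (f := fun x => Algebra.norm F (v x) ^ e) fun x hx => by
      rw [Finset.mem_coe, Polynomial.mem_nthRootsFinset h0, ← pow_mul, mul_comm, ← he,
        Nat.card_eq_fintype_card]
      exact FiniteField.pow_card_sub_one_eq_one _ (Algebra.norm_ne_zero_iff.2 (hv0 x hx))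
  obtain ⟨t, ht, e2⟩ := cls_eq hn he' (hv0 x hx) (hv0 y hy) e1
  rw [← hv x hx, ← hv y hy] at e2
  obtain ⟨h1, h2⟩ := (lin F K).pt_bot.1 hx
  obtain ⟨h3, h4⟩ := (lin F K).pt_bot.1 hy
  refine ⟨x, t, ht, lin_rk x ▸ h2, by rw [e2]; exact hxy.symm, ?_⟩
  rw [e2]
  exact (lin F K).eq_of_rk_le (sup_le h1 h3) (by rw [PG.rk_sup_pts _ h2 h4 hxy, lin_rk, hl])

/-- every orbital is large -/
theorem Hyp.all_hit (h : Hyp H n) (hq : n ∣ Nat.card F - 1) {x y : Submodule F K}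
    (hx : finrank F x = 1) (hy : finrank F y = 1) (hxy : x ≠ y) :
    ∃ a ∈ H, ∃ t ∈ T0 F K, a • y = t • a • x := by
  by_contra! hh
  have h1 := h.small hq hx hy hxy hh
  have hx' : (lin F K).rk x = 1 := (lin_rk x).trans hx
  have hy' : (lin F K).rk y = 1 := (lin_rk y).trans hy
  obtain ⟨z, t, ht, hz, hzt, e⟩ := exists_pair h.rank h.prime.pos hq (l := x ⊔ y)
    (by rw [← lin_rk]; exact (lin F K).rk_sup_pts hx' hy' hxy)
  have hz2 : finrank F ↥(t • z) = 1 := by rw [finrank_smul, hz]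
  have h2 := h.large hq hz hz2 hzt.symm (one_mem H) ht (by rw [one_smul, one_smul])
  have h3 := orb_le_line (P := lin F K) (Y := H) (by simpa only [lin_rk] using h.tr) hx' hy' hxy
    ((lin_rk z).trans hz) ((lin_rk _).trans hz2) hzt.symm e.symm
  have h4 := (num_n (li_le hq) h.big (h.card_n hq)).2.2.2
  rw [lin_q] at h3
  have h5 := Nat.mul_le_mul_left (n + 1) (h3.trans (Nat.mul_le_mul_left _ h1))
  omega

theorem Hyp.large' (h : Hyp H n) (hq : n ∣ Nat.card F - 1) {x y : Submodule F K}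
    (hx : finrank F x = 1) (hy : finrank F y = 1) (hxy : x ≠ y) :
    Nat.card F * th (Nat.card F) (n - 1) < (n + 1) * (orb (Stab H x) y).ncard := by
  obtain ⟨a, ha, t, ht, e⟩ := h.all_hit hq hx hy hxy
  have h1 := h.large hq hx hy hxy ha ht e
  have h2 := (lin F K).θ_succ' (n - 1)
  rw [Nat.sub_add_cancel h.prime.pos] at h2
  simp only [PG.θ, lin_q] at h2
  omega

theorem Hyp.lt_eig (h : Hyp H n) (hq : n ∣ Nat.card F - 1) {u v : K} (hu : u ≠ 0) (hv : v ≠ 0)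
    (huv : (F ∙ u) ≠ F ∙ v) {a : K ≃ₗ[F] K} (ha : a ∈ H) {α β : F} (hau : a u = α • u)
    (hav : a v = β • v) (hζ : IsPrimitiveRoot (α / β) n) :
    LT (lin F K) H (F ∙ u) ((F ∙ u) ⊔ F ∙ v) := by
  refine trl hu hv huv ha hau hav h.prime hζ ?_
  have h1 := h.large' hq (finrank_span_singleton hu) (finrank_span_singleton hv) huv
  have h2 := orb_le_mul (P := lin F K) (Y := H) (rk_span hu) (rk_span hv) huv
  simp only [PG.θ, lin_q, lin_n, h.rank] at h2
  have h3 := h1.trans_le (Nat.mul_le_mul_left _ h2)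
  rw [mul_left_comm, mul_comm (Nat.card F)] at h3
  exact Nat.lt_of_mul_lt_mul_left h3

theorem Hyp.lt (h : Hyp H n) (hq : n ∣ Nat.card F - 1) {x l : Submodule F K}
    (hx : finrank F x = 1) (hl : finrank F l = 2) (hxl : x ≤ l) : LT (lin F K) H x l := by
  have hb := h.big
  obtain ⟨ϑ, ζ, σ, h0, hζ, hσ, hcl⟩ := exists_theta h.rank h.prime
    (h.prime.odd_of_ne_two (by omega)) hq
  have hζ0 : ζ ≠ 0 := hζ.ne_zero (by omega)
  have hζ1 : ζ ≠ 1 := hζ.ne_one (by omega)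
  have hσi : ∀ i : ℕ, σ.toLinearEquiv (ϑ ^ i) = ζ ^ i • ϑ ^ i := fun i => by
    rw [AlgEquiv.toLinearEquiv_apply, map_pow, hσ, smul_pow]
  have hne : ∀ i : ℕ, (F ∙ ϑ ^ i) ≠ F ∙ ϑ ^ (i + 1) := fun i e => by
    obtain ⟨c, hc⟩ := Submodule.mem_span_singleton.1
      (e ▸ Submodule.mem_span_singleton_self (ϑ ^ (i + 1)) : ϑ ^ (i + 1) ∈ F ∙ ϑ ^ i)
    have h1 : algebraMap F K c = ϑ := by
      rw [Algebra.smul_def, pow_succ'] at hc
      exact mul_right_cancel₀ (pow_ne_zero i h0) hc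
    have h2 : ζ • ϑ = (1 : F) • ϑ := by rw [← hσ, one_smul, ← h1, AlgEquiv.commutes]
    exact hζ1 (smul_left_injective F h0 h2)
  -- the standard lines
  have hstd : ∀ (i : ℕ) (w : Submodule F K), (lin F K).rk w = 1 →
      w ≤ (F ∙ ϑ ^ i) ⊔ (F ∙ ϑ ^ (i + 1)) → LT (lin F K) H w ((F ∙ ϑ ^ i) ⊔ F ∙ ϑ ^ (i + 1)) := by
    intro i w hw hwl
    have h1 := pow_ne_zero i h0
    have h2 := pow_ne_zero (i + 1) h0
    refine LT.all (rk_span h1) (rk_span h2) (hne i) le_sup_left le_sup_right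
      (h.lt_eig hq h1 h2 (hne i) (h.gal_mem σ) (hσi i) (hσi (i + 1)) ?_) ?_ hw hwl
    · rw [pow_succ, div_mul_eq_div_div, div_self (pow_ne_zero i hζ0), one_div]
      exact hζ.inv
    · rw [sup_comm]
      refine h.lt_eig hq h2 h1 (hne i).symm (h.gal_mem σ) (hσi (i + 1)) (hσi i) ?_
      rw [pow_succ', mul_div_assoc, div_self (pow_ne_zero i hζ0), mul_one]
      exact hζ
  have hx' : (lin F K).rk x = 1 := (lin_rk x).trans hx
  have hl' : (lin F K).rk l = 2 := (lin_rk l).trans hl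
  obtain ⟨y, hy, hyl, hyx⟩ := (lin F K).exists_rk1 (a := l) (b := x) fun hh => by
    have := (lin F K).rk_mono hh; omega
  have hxy : x ≠ y := fun e => hyx e.ge
  have hly : x ⊔ y = l :=
    (lin F K).eq_of_rk_le (sup_le hxl hyl) (by rw [PG.rk_sup_pts _ hx' hy hxy, hl'])
  obtain ⟨z, t, ht, hz, hzt, e⟩ := exists_pair h.rank h.prime.pos hq
    (l := (F ∙ ϑ ^ 0) ⊔ F ∙ ϑ ^ (0 + 1)) (by
      rw [← lin_rk]
      exact (lin F K).rk_sup_pts (rk_span (pow_ne_zero _ h0)) (rk_span (pow_ne_zero _ h0)) (hne 0))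
  obtain ⟨a, ha, t', ht', e1⟩ := h.all_hit hq hx (lin_rk y ▸ hy) hxy
  obtain ⟨b, hbH, e2⟩ := h.hit hx (lin_rk y ▸ hy) hxy ha ht' e1 ht hz hzt
  obtain ⟨w, hw, ew⟩ := exists_of_rk (x := b • x) (by rw [PG.rk_smul]; exact hx')
  obtain ⟨z0, hz0, rfl⟩ := exists_of_rk ((lin_rk z).trans hz)
  obtain ⟨i, s, hs, e3⟩ := hcl (w / z0) (div_ne_zero hw hz0)
  obtain ⟨s0, -, -, hs0⟩ := id hs
  let r : K ≃ₗ[F] K := mulE F (ϑ ^ i) (pow_ne_zero i h0)
  have hr : ∀ x, r x = ϑ ^ i * x := fun _ => rfl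
  have e4 : s • (F ∙ w) = r • (F ∙ z0) := by
    have := congrArg (fun U => mulE F z0 hz0 • U) e3
    simp only [smul_span, mulE_apply, hs0] at this ⊢
    rw [hr, mul_comm (ϑ ^ i), ← this]
    congr 2
    field_simp
  have hrt : r * t = t * r := by
    obtain ⟨t0, -, -, ht0⟩ := ht
    ext x
    rw [LinearEquiv.mul_apply, LinearEquiv.mul_apply, hr, ht0, ht0, hr, mul_left_comm]
  have e5 : (s * b) • l = (F ∙ ϑ ^ i) ⊔ F ∙ ϑ ^ (i + 1) := by
    rw [← hly, (lin F K).smul_sup, mul_smul, mul_smul, e2, ew, ← mul_smul s t, T0_comm hs ht,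
      mul_smul, e4, ← mul_smul t r, ← hrt, mul_smul, ← (lin F K).smul_sup, e, (lin F K).smul_sup,
      li_mul_span hr, li_mul_span hr, ← pow_add, ← pow_add, add_zero, zero_add]
  have hsb : s * b ∈ H := mul_mem (h.T0_le hs) hbH
  have h3 := hstd i ((s * b) • x) (by rw [PG.rk_smul]; exact hx')
    (by rw [← e5]; exact (lin F K).smul_mono _ hxl)
  have h4 := h3.smul (inv_mem hsb)
  rwa [← e5, inv_smul_smul, inv_smul_smul] at h4

theorem Hyp.two (h : Hyp H n) : (lin F K).Two H ⊥ ⊤ := by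
  by_cases hq : n ∣ Nat.card F - 1
  swap
  · exact h.two_one hq
  have hb := h.big
  refine two_of_at (at_of_lines (by rw [lin_n, h.rank]; omega)
    (by simpa only [lin_rk] using h.tr) fun x l hx hl hxl =>
      h.lt hq (lin_rk x ▸ hx) (lin_rk l ▸ hl) hxl) fun x y hx hy hxy => ?_
  have h1 := h.large' hq (lin_rk x ▸ hx) (lin_rk y ▸ hy) hxy
  have h2 := (Nat.mul_le_mul_right (th (Nat.card F) (n - 1)) (li_le hq)).trans_lt h1
  simp only [PG.θ, lin_q, lin_n, h.rank]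
  exact (Nat.lt_of_mul_lt_mul_left h2).le

end CfsgLib.Sgr
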