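import Mathlib

/-!
Singer normaliser: vocabulary for the polynomial part.
-/

set_option autoImplicit false

namespace CfsgLib.Sgr

open MvPolynomial

variable {K : Type*} [Field K] {n : ℕ}

/-- the linear substitution `X j ↦ ∑ l, M j l * X l` -/
noncomputable def sub (M : Matrix (Fin n) (Fin n) K) :
    MvPolynomial (Fin n) K →ₐ[K] MvPolynomial (Fin n) K :=
  aeval fun j => ∑ l, C (M j l) * X l

/-- the norm form -/
noncomputable def NN (K : Type*) [Field K] (n : ℕ) : MvPolynomial (Fin n) K := ∏ j, X j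

/-- evaluation at `(x, x^q, x^(q^2), …)` -/
noncomputable def evq (n q : ℕ) (x : K) : MvPolynomial (Fin n) K →+* K :=
  eval fun j => x ^ q ^ (j : ℕ)

/-- the defect of invariance of `NN ^ t` -/
noncomputable def df (M : Matrix (Fin n) (Fin n) K) (t : ℕ) : MvPolynomial (Fin n) K :=
  sub M (NN K n) ^ t - NN K n ^ t

/-- the exponent `t·(1,…,1) + e_i - e_j` -/
noncomputable def nu (t : ℕ) (i j : Fin n) : Fin n →₀ ℕ :=
  Finsupp.equivFunOnFinite.symm fun l => if l = i then t + 1 else if l = j then t - 1 else t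

theorem nu_apply (t : ℕ) (i j l : Fin n) :
    nu t i j l = if l = i then t + 1 else if l = j then t - 1 else t := rfl

/-- neither `R` nor any `X k * ∂_l R` involves a monomial `nu t i j` (characteristic `p`) -/
def Good (p t : ℕ) (R : MvPolynomial (Fin n) K) : Prop :=
  ∀ i j, i ≠ j → ∀ u ∈ R.support, u ≠ nu t i j ∧
    ∀ k l, u + Finsupp.single k 1 = nu t i j + Finsupp.single l 1 → p ∣ u l

theorem sub_X (M : Matrix (Fin n) (Fin n) K) (j : Fin n) :
    sub M (X j) = ∑ l, C (M j l) * X l := aeval_X _ _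

theorem evq_X (q : ℕ) (x : K) (j : Fin n) : evq n q x (X j) = x ^ q ^ (j : ℕ) := eval_X _

theorem evq_C (q : ℕ) (x c : K) : evq n q x (C c) = c := eval_C _

end CfsgLib.Sgr
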