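import Cfsg.Agent.Lib.Sgr.FDefs
import Cfsg.Agent.Lib.Sgr.PDefs

/-!
Singer normaliser, package MAT: linearised polynomials.
-/

set_option autoImplicit false
set_option linter.unusedSectionVars false

namespace CfsgLib.Sgr

open Module CfsgLib.CK CfsgLib.ClMax

variable {F K : Type*} [Field F] [Finite F] [Field K] [Finite K] [Algebra F K]
  {n : ℕ}

/-- `M` is the matrix of `a` in the coordinates `x ^ q ^ j` -/
def IsMat (a : K →ₗ[F] K) (M : Matrix (Fin n) (Fin n) K) : Prop :=
  ∀ (j : Fin n) (x : K), a x ^ Nat.card F ^ (j : ℕ) = ∑ l, M j l * x ^ Nat.card F ^ (l : ℕ)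

theorem mat_equiv (hn : finrank F K = n) :
    ∃ e : Fin n ≃ (K ≃ₐ[F] K), ∀ (l : Fin n) (x : K), e l x = x ^ Nat.card F ^ (l : ℕ) := by
  subst hn
  have := Fintype.ofFinite F
  refine ⟨Equiv.ofBijective _ (FiniteField.bijective_frobeniusAlgEquivOfAlgebraic_pow F K),
    fun l x => ?_⟩
  rw [Equiv.ofBijective_apply, AlgEquiv.coe_pow,
    FiniteField.coe_frobeniusAlgEquivOfAlgebraic_iterate, Nat.card_eq_fintype_card]

theorem lin_indep (hn : finrank F K = n) {c : Fin n → K}
    (h : ∀ x : K, ∑ l, c l * x ^ Nat.card F ^ (l : ℕ) = 0) : c = 0 := by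
  obtain ⟨e, he⟩ := mat_equiv hn
  funext l
  have := gal_coeff_eq_zero (F := F) (A := fun τ => c (e.symm τ)) (fun x => by
    rw [← e.sum_comp, ← h x]
    simp only [Equiv.symm_apply_apply, he]) (e l)
  simpa using this

theorem exists_mat (hn : finrank F K = n) (a : K →ₗ[F] K) :
    ∃ M : Matrix (Fin n) (Fin n) K, IsMat a M := by
  obtain ⟨e, he⟩ := mat_equiv hn
  choose A hA using fun j : Fin n => exists_gal_coeff ((e j).toLinearMap ∘ₗ a)
  refine ⟨Matrix.of fun j l => A j (e l), fun j x => ?_⟩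
  have h1 := hA j x
  rw [← e.sum_comp] at h1
  simpa only [LinearMap.comp_apply, AlgEquiv.toLinearMap_apply, he, Matrix.of_apply] using h1

theorem IsMat.evq_sub {a : K →ₗ[F] K} {M : Matrix (Fin n) (Fin n) K} (h : IsMat a M)
    (P : MvPolynomial (Fin n) K) (x : K) :
    evq n (Nat.card F) x (sub M P) = evq n (Nat.card F) (a x) P := by
  induction P using MvPolynomial.induction_on with
  | C c => rw [MvPolynomial.algHom_C, MvPolynomial.algebraMap_eq, evq_C, evq_C]
  | add P Q hP hQ => simp only [map_add, hP, hQ]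
  | mul_X P j hP =>
    rw [map_mul, map_mul, map_mul, hP, sub_X, evq_X, h, map_sum]
    simp only [map_mul, evq_C, evq_X]

theorem evq_NN (hn : finrank F K = n) (x : K) :
    evq n (Nat.card F) x (NN K n) = algebraMap F K (Algebra.norm F x) := by
  rw [NN, map_prod, FiniteField.algebraMap_norm_eq_prod_pow, hn, Finset.prod_range]
  simp only [evq_X]

theorem IsMat.semi (hn : finrank F K = n) {a : K ≃ₗ[F] K} {M : Matrix (Fin n) (Fin n) K}
    (h : IsMat (a : K →ₗ[F] K) M) (hd : ∀ (B : Matrix (Fin n) (Fin n) K) (d : Fin n → K),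
      Matrix.diagonal d * M = M * B → ∀ i j, i ≠ j → B i j = 0) : Semi (a : K →ₗ[F] K) := by
  have hn0 : 0 < n := hn ▸ finrank_pos
  have key : ∀ k : K, ∃ k', ∀ x, a (k' * x) = k * a x := by
    intro k
    let b : K →ₗ[F] K := (a.symm : K →ₗ[F] K) ∘ₗ LinearMap.mulLeft F k ∘ₗ (a : K →ₗ[F] K)
    have hb : ∀ x, a (b x) = k * a x := fun x => a.apply_symm_apply _
    obtain ⟨B, hB⟩ := exists_mat hn b
    have h1 : Matrix.diagonal (fun j : Fin n => k ^ Nat.card F ^ (j : ℕ)) * M = M * B := by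
      ext j l
      rw [← sub_eq_zero]
      refine congrFun (lin_indep hn (c := fun l => (Matrix.diagonal
        (fun j : Fin n => k ^ Nat.card F ^ (j : ℕ)) * M) j l - (M * B) j l) fun x => ?_) l
      have h2 := h j (b x)
      have h3 := h j x
      simp only [LinearEquiv.coe_coe] at h2 h3
      rw [hb, mul_pow, h3] at h2
      simp only [hB _ x, Finset.mul_sum] at h2
      simp only [sub_mul, Finset.sum_sub_distrib, Matrix.diagonal_mul]
      simp only [Matrix.mul_apply, Finset.sum_mul, mul_assoc]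
      rw [h2, Finset.sum_comm, sub_self]
    refine ⟨B ⟨0, hn0⟩ ⟨0, hn0⟩, fun x => ?_⟩
    have h4 := hB ⟨0, hn0⟩ x
    rw [Finset.sum_eq_single ⟨0, hn0⟩ (fun l _ hl => by rw [hd B _ h1 _ _ hl.symm, zero_mul])
      (by simp)] at h4
    simp only [pow_zero, pow_one] at h4
    rw [← h4, hb]
  choose f hf using key
  have hinj : Function.Injective f := fun k l hkl => by
    have h1 : a 1 ≠ 0 := fun e => one_ne_zero (a.injective (e.trans (map_zero a).symm))
    exact mul_right_cancel₀ h1 (by rw [← hf, ← hf, hkl])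
  intro k
  obtain ⟨k', rfl⟩ := Finite.surjective_of_injective hinj k
  exact ⟨k', hf k'⟩

end CfsgLib.Sgr
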