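import Cfsg.Agent.Lib.Sgr.Num

/-!
Singer normaliser, degree at least five: estimates.
-/

set_option autoImplicit false

namespace CfsgLib.Sgr

open CfsgLib.CK

theorem num5_pow (q k : ℕ) : q ^ k ≤ th q (k + 1) := num_succ q _ ▸ Nat.le_add_left _ _

theorem num5_two {q : ℕ} (hq : 2 ≤ q) (k : ℕ) : 2 ^ k ≤ th q k + 1 := by
  induction k with
  | zero => simp
  | succ k ih =>
    have := Nat.pow_le_pow_left hq k
    rw [num_succ, pow_succ]
    omega

theorem num5_one {q n : ℕ} (hq : 2 ≤ q) (hn : 5 ≤ n) :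
    (1 * n) ^ 2 + 1 < th q n ∧ th q (n - 1) + q + 1 < th q n := by
  obtain ⟨k, rfl⟩ : ∃ k, n = k + 4 + 1 := ⟨n - 5, by omega⟩
  have h1 : (k + 5) ^ 2 + 2 < 2 ^ (k + 5) := by
    clear hn
    induction k with
    | zero => norm_num
    | succ k ih => rw [show k + 1 + 5 = k + 5 + 1 by ring, pow_succ 2]; nlinarith
  have h2 := num5_two hq (k + 5)
  have h3 : q ^ 3 ≤ q ^ (k + 4) := Nat.pow_le_pow_right (by omega) (by omega)
  refine ⟨by rw [one_mul]; exact Nat.lt_of_succ_lt_succ (h1.trans_le h2), ?_⟩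
  rw [num_succ, Nat.add_sub_cancel]
  nlinarith [Nat.mul_le_mul hq hq]

theorem num5_cases {q n : ℕ} (hp : n.Prime) (hn : 5 ≤ n) (hq : n ∣ q - 1) (h1 : 1 < q)
    (h6 : q ≠ 6) : (n = 5 ∧ q = 11) ∨ (n * (2 * (n + 1) * n ^ 4) < th q n ∧
      (n + 1) * ((q - 1) * n ^ 3) ≤ th q n) := by
  have hle : n + 1 ≤ q := by have := Nat.le_of_dvd (by omega) hq; omega
  by_cases h5 : n = 5
  · subst h5
    by_cases h11 : q = 11
    · exact Or.inl ⟨rfl, h11⟩
    have h16 : 16 ≤ q := by omega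
    have h2 := num5_pow q 4
    have h3 : 16 ^ 3 * q ≤ q ^ 4 := by
      rw [pow_succ q 3]; exact Nat.mul_le_mul_right _ (Nat.pow_le_pow_left h16 3)
    exact Or.inr ⟨by norm_num at h2 h3 ⊢; omega, by norm_num at h2 h3 ⊢; omega⟩
  have h7 : 7 ≤ n := by
    by_contra h
    obtain rfl : n = 6 := by omega
    exact absurd hp (by norm_num)
  have h4 : (n + 1) * ((q - 1) * n ^ 3) ≤ q ^ 5 :=
    calc _ ≤ q * (q * q ^ 3) := by gcongr <;> omega
      _ = _ := by ring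
  obtain ⟨k, rfl⟩ : ∃ k, n = k + 5 + 1 + 1 := ⟨n - 7, by omega⟩
  have h2 := num5_pow q (k + 5)
  have h3 : q ^ 5 ≤ q ^ (k + 5) := Nat.pow_le_pow_right (by omega) (by omega)
  rw [num_succ q (k + 5 + 1)]
  refine Or.inr ⟨?_, by omega⟩
  rcases Nat.eq_zero_or_pos k with rfl | hk
  · have h8 := Nat.pow_le_pow_left hle 5
    have h9 := Nat.pow_le_pow_left hle 6
    norm_num at h8 h9 h2 ⊢
    omega
  · have h8 : q ^ 7 ≤ q ^ (k + 5 + 1) := Nat.pow_le_pow_right (by omega) (by omega)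
    have h9 : 0 < q ^ 5 := pow_pos (by omega) 5
    generalize k + 5 + 1 + 1 = n at *
    have : n * (2 * (n + 1) * n ^ 4) ≤ q ^ 7 :=
      calc _ ≤ q * (q * q * q ^ 4) := by gcongr <;> omega
        _ = _ := by ring
    omega

theorem num5_n {q n m : ℕ} (hp : n.Prime) (hn : 5 ≤ n) (hq : n ∣ q - 1) (h1 : 1 < q)
    (h6 : q ≠ 6) (hm : n * m = th q n) : (n * n) ^ 2 + 1 < m ∧ th q (n - 1) + q + n < m := by
  have hle : n + 1 ≤ q := by have := Nat.le_of_dvd (by omega) hq; omega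
  constructor
  · rcases num5_cases hp hn hq h1 h6 with ⟨rfl, rfl⟩ | ⟨h2, -⟩
    · simp [th, Finset.sum_range_succ] at hm
      omega
    · rw [← hm] at h2
      have h3 := Nat.lt_of_mul_lt_mul_left h2
      have h4 : 0 < n ^ 4 := pow_pos (by omega) 4
      rw [show (n * n) ^ 2 = n ^ 4 by ring]
      nlinarith
  · obtain ⟨k, rfl⟩ : ∃ k, n = k + 3 + 1 + 1 := ⟨n - 5, by omega⟩
    have h2 : q ^ 3 ≤ th q (k + 3 + 1) :=
      (Nat.pow_le_pow_right (by omega) (by omega)).trans (num5_pow q _)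
    rw [num_succ'] at hm
    rw [Nat.add_sub_cancel]
    generalize th q (k + 3 + 1) = θ at *
    generalize k + 3 + 1 + 1 = n at *
    have h3 : n * θ + θ < n * m := by nlinarith [Nat.mul_le_mul_right θ hle]
    have h4 : q * ((n + 1) * (n + 1)) ≤ q ^ 3 := by
      rw [show q ^ 3 = q * (q * q) by ring]; gcongr
    exact lt_of_mul_lt_mul_left (a := n) (by nlinarith) (Nat.zero_le _)

/-- what is used of a large subdegree -/
def Big5 (q n κ : ℕ) : Prop :=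
  (q - 1) * n ^ 3 < κ ∧ (∀ δ, κ ≤ th q (n - 1) * δ → q < (n + 1) * δ) ∧ th q (n - 1) ≤ κ

theorem arith5_pos {l g κ : ℕ} (hg : 2 ≤ g) (hm : 2 * (g + 1) * g ^ 4 < l + 1)
    (h : κ ≤ l → (l : ℤ) * (l - κ) ^ 2 ≤ g ^ 3 * (l + 1) * κ) : g * (l + 1) < (g + 1) * κ := by
  by_contra! h0
  have g4 : 16 ≤ g ^ 4 := Nat.pow_le_pow_left hg 4
  have hl : 32 * g ≤ l := by nlinarith
  have h1 := h (by nlinarith)
  zify at h0 hm hl hg
  have h2 : (l : ℤ) - g ≤ (g + 1) * (l - κ) := by linarith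
  have h3 := mul_le_mul_of_nonneg_left (pow_le_pow_left₀ (by omega) h2 2)
    (show (0 : ℤ) ≤ l by positivity)
  have h4 := mul_le_mul_of_nonneg_left h1 (show (0 : ℤ) ≤ (g + 1) ^ 2 by positivity)
  have h5 := mul_le_mul_of_nonneg_left h0 (show (0 : ℤ) ≤ (g + 1) * g ^ 3 * (l + 1) by positivity)
  have h6 : (l : ℤ) * (l - g) ^ 2 ≤ (g + 1) * g ^ 4 * (l + 1) ^ 2 := by linarith
  have h7 : ((l : ℤ) + 1) ^ 2 < 2 * (l - g) ^ 2 := by nlinarith
  have h8 := mul_le_mul_of_nonneg_right (show 2 * ((g : ℤ) + 1) * g ^ 4 ≤ l by omega)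
    (show (0 : ℤ) ≤ (l + 1) ^ 2 by positivity)
  have h9 := mul_lt_mul_of_pos_left h7 (show (0 : ℤ) < l by omega)
  linarith

theorem num5_big {q n l κ : ℕ} (hp : n.Prime) (hn : 5 ≤ n) (hq : n ∣ q - 1) (h1 : 1 < q)
    (h6 : q ≠ 6) (hm : n * (l + 1) = th q n)
    (h : κ ≤ l → (l : ℤ) * (l - κ) ^ 2 ≤ n ^ 3 * (l + 1) * κ) : Big5 q n κ := by
  have hle : n + 1 ≤ q := by have := Nat.le_of_dvd (by omega) hq; omega
  rcases num5_cases hp hn hq h1 h6 with ⟨rfl, rfl⟩ | ⟨h2, h3⟩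
  · have h4 : th 11 (5 - 1) = 1464 := by simp [th, Finset.sum_range_succ]
    obtain rfl : l = 3220 := by
      simp [th, Finset.sum_range_succ] at hm
      omega
    have h5 : 1464 < κ := by
      by_contra! h5
      have h7 := h (by omega)
      zify at h5
      push_cast at h7
      nlinarith
    rw [Big5, h4]
    exact ⟨by omega, fun δ hδ => by omega, by omega⟩
  · rw [← hm] at h2
    have h4 := arith5_pos (by omega) (Nat.lt_of_mul_lt_mul_left h2) h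
    rw [hm] at h4
    have h5 := num_succ' q (n - 1)
    rw [Nat.sub_add_cancel (by omega)] at h5
    have h7 : q * th q (n - 1) < (n + 1) * κ := by omega
    refine ⟨Nat.lt_of_mul_lt_mul_left (h3.trans_lt h4), fun δ hδ => ?_,
      (Nat.lt_of_mul_lt_mul_left ((Nat.mul_le_mul_right _ hle).trans_lt h7)).le⟩
    have h8 := h7.trans_le (Nat.mul_le_mul_left _ hδ)
    rw [mul_left_comm, mul_comm q] at h8
    exact Nat.lt_of_mul_lt_mul_left h8

theorem arith5_zero {m g κ S : ℕ} (hm : g ^ 3 + 1 < m)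
    (h1 : ((0 : ℤ) - m * κ) ^ 2 ≤ g * m * (S - m * κ ^ 2))
    (h2 : (m - 1) * S ≤ m * ((m - 1) * κ ^ 2 + g * (g * m * κ))) : κ ≤ g ^ 3 := by
  obtain ⟨l, rfl⟩ : ∃ l, m = l + 1 := ⟨m - 1, by omega⟩
  rw [Nat.add_sub_cancel] at h2
  by_contra! hκ
  zify at h2 hm hκ
  push_cast at h1
  have h0 : (0 : ℤ) ≤ g ^ 3 := by positivity
  have h3 : (l : ℤ) * ((l + 1) * κ) ^ 2 ≤ g * (l + 1) * (g ^ 2 * (l + 1) ^ 2 * κ) := by
    have a := mul_le_mul_of_nonneg_left h1 (show (0 : ℤ) ≤ l by positivity)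
    have b := mul_le_mul_of_nonneg_left h2 (show (0 : ℤ) ≤ g * (l + 1) by positivity)
    linarith
  have h4 : (l : ℤ) * κ ≤ g ^ 3 * (l + 1) :=
    le_of_mul_le_mul_left (a := ((l : ℤ) + 1) ^ 2 * κ) (by linarith)
      (mul_pos (by positivity) (by omega))
  nlinarith

theorem arith5_raw {l g κ S f : ℕ} (hf : l + 1 ≤ f)
    (h1 : (((l * f : ℕ) : ℤ) - (l + 1 : ℕ) * κ) ^ 2 ≤ g * (l + 1 : ℕ) * (S - (l + 1 : ℕ) * κ ^ 2))
    (h2 : l * S ≤ (l + 1) * (l * κ ^ 2 + g * (g * (l + 1) * κ))) (hκ : κ ≤ l) :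
    (l : ℤ) * (l - κ) ^ 2 ≤ g ^ 3 * (l + 1) * κ := by
  zify at h2 hf hκ
  push_cast at h1
  have h3 : (l : ℤ) * (l * f - (l + 1) * κ) ^ 2 ≤ g * (l + 1) * (g ^ 2 * (l + 1) ^ 2 * κ) := by
    have a := mul_le_mul_of_nonneg_left h1 (show (0 : ℤ) ≤ l by positivity)
    have b := mul_le_mul_of_nonneg_left h2 (show (0 : ℤ) ≤ g * (l + 1) by positivity)
    linarith
  have h4 : ((l : ℤ) + 1) * (l - κ) ≤ l * f - (l + 1) * κ := by
    have a := mul_le_mul_of_nonneg_left hf (show (0 : ℤ) ≤ l by positivity)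
    linarith
  have h5 := mul_le_mul_of_nonneg_left (pow_le_pow_left₀
    (mul_nonneg (by positivity) (by omega)) h4 2) (show (0 : ℤ) ≤ l by positivity)
  exact le_of_mul_le_mul_left (a := ((l : ℤ) + 1) ^ 2) (by linarith) (by positivity)

end CfsgLib.Sgr
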