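import Cfsg.Agent.Lib.Sgr.GDefs

/-!
Singer normaliser, package PD: positive definite functions.
-/

set_option autoImplicit false

namespace CfsgLib.Sgr

open Cfsg CfsgLib.Char
open scoped ComplexConjugate

variable {G : Type*} [Group G] [Fintype G]

theorem irr_conv {χ : G → ℂ} (hχ : IsIrrCharacter G χ) (u : G) :
    χ 1 * ∑ b, χ (b * u) * χ b⁻¹ = Nat.card G * χ u := by
  have hc := isCharacter_of_isIrr hχ
  have h1 := sum_mul_irr_mul hχ (isClassFunction_inv (isClassFunction_of_isIrr hχ)) u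
  have h2 := card_mul_classInner χ χ
  rw [classInner_irr_self hχ, mul_one] at h2
  simp only [char_inv hc, mul_comm (conj (χ _))] at h1
  simp only [char_inv hc]
  rw [h1, ← h2]
  field_simp [irr_one_ne_zero hχ]

theorem pd_eq {ι : Type*} [Fintype ι] {F : G → ℂ} {w : ι → G → ℂ}
    (hF : ∀ a b, F (b⁻¹ * a) = ∑ i, w i a * conj (w i b)) {χ : G → ℂ}
    (hχ : IsIrrCharacter G χ) : (Nat.card G : ℂ) ^ 2 * classInner F χ =
      χ 1 * ((∑ i, ‖∑ a, w i a * conj (χ a)‖ ^ 2 : ℝ) : ℂ) := by
  have hc := isCharacter_of_isIrr hχ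
  have h1 : conj (χ 1) = χ 1 := by rw [← char_inv hc, inv_one]
  have h2 : ∀ u, χ 1 * ∑ b, conj (χ (b * u)) * χ b = Nat.card G * conj (χ u) := fun u => by
    have := congrArg conj (irr_conv hχ u)
    simpa only [map_mul, map_sum, h1, conj_char_inv hc, map_natCast] using this
  have h3 : ((∑ i, ‖∑ a, w i a * conj (χ a)‖ ^ 2 : ℝ) : ℂ) =
      ∑ u, F u * ∑ b, conj (χ (b * u)) * χ b := by
    push_cast
    simp only [← Complex.mul_conj', map_sum, map_mul, Complex.conj_conj, Finset.mul_sum]
    rw [Finset.sum_comm]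
    rw [Finset.sum_comm (f := fun u b => F u * (conj (χ (b * u)) * χ b))]
    refine Finset.sum_congr rfl fun b _ => ?_
    simp only [Finset.sum_mul]
    rw [Finset.sum_comm, ← Equiv.sum_comp (Equiv.mulLeft b)]
    refine Finset.sum_congr rfl fun u _ => ?_
    have := hF (b * u) b
    rw [inv_mul_cancel_left] at this
    rw [this, Finset.sum_mul]
    refine Finset.sum_congr rfl fun i _ => ?_
    simp only [Equiv.coe_mulLeft]
    ring
  rw [h3, sq, mul_assoc, card_mul_classInner, Finset.mul_sum, Finset.mul_sum]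
  refine Finset.sum_congr rfl fun u _ => ?_
  rw [mul_left_comm (χ 1), h2]
  ring

theorem pd_nonneg {ι : Type*} [Fintype ι] {F : G → ℂ} {w : ι → G → ℂ}
    (hF : ∀ a b, F (b⁻¹ * a) = ∑ i, w i a * conj (w i b)) {χ : G → ℂ}
    (hχ : IsIrrCharacter G χ) : ∃ s : ℝ, 0 ≤ s ∧ classInner F χ = s := by
  obtain ⟨k, -, hk⟩ := exists_irr_one_eq_nat hχ
  have h := pd_eq hF hχ
  refine ⟨k * (∑ i, ‖∑ a, w i a * conj (χ a)‖ ^ 2) / (Nat.card G : ℝ) ^ 2, by positivity, ?_⟩
  rw [Complex.ofReal_div, Complex.ofReal_mul, Complex.ofReal_natCast, ← hk, ← h]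
  push_cast
  field_simp [natCard_ne_zero (G := G)]

variable {Ω : Type*} [MulAction G Ω] [Fintype Ω]

/-- matrix coefficients of the permutation module involve only constituents of `π` -/
theorem inner_eq_zero {χ : G → ℂ} (hχ : IsIrrCharacter G χ) (h0 : classInner (perm Ω) χ = 0)
    (B : Ω → Ω → ℂ) : classInner (fun a : G => ∑ x, B x (a • x)) χ = 0 := by
  classical
  have h := pd_eq (F := perm Ω) (w := fun (i : Ω × Ω) (a : G) => if a • i.1 = i.2 then 1 else 0)
    (fun a b => by
      rw [Fintype.sum_prod_type, perm, Nat.card_eq_fintype_card, Fintype.card_subtype, Finset.card_filter]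
      push_cast
      refine Finset.sum_congr rfl fun x _ => ?_
      rw [Finset.sum_eq_single (a • x) (fun y _ hy => by simp [hy.symm]) (by simp)]
      simp only [MulAction.mem_fixedBy, mul_smul, inv_smul_eq_iff, if_true, one_mul]
      by_cases e : a • x = b • x
      · simp [e]
      · simp [e, Ne.symm e]) hχ
  rw [h0, mul_zero, eq_comm, mul_eq_zero, Complex.ofReal_eq_zero] at h
  have h1 := (Finset.sum_eq_zero_iff_of_nonneg fun i _ => sq_nonneg _).1 (h.resolve_left (irr_one_ne_zero hχ))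
  rw [classInner_def]
  refine mul_eq_zero_of_right _ ?_
  simp only [Finset.sum_mul]
  rw [Finset.sum_comm]
  refine Finset.sum_eq_zero fun x _ => ?_
  have h2 : ∀ a : G, B x (a • x) * conj (χ a) =
      ∑ y, B x y * ((if a • x = y then 1 else 0) * conj (χ a)) := fun a => by simp
  simp only [h2]
  rw [Finset.sum_comm]
  refine Finset.sum_eq_zero fun y _ => ?_
  rw [← Finset.mul_sum, norm_eq_zero.1 (pow_eq_zero_iff two_ne_zero |>.1 (h1 (x, y) (Finset.mem_univ _))),
    mul_zero]

/-- a class function all of whose constituents are constant on `T#` is constant on `T#` -/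
theorem cst_of_inner {T : Subgroup G} {f : G → ℂ} (hf : IsClassFunction G f)
    (h : ∀ χ, IsIrrCharacter G χ → classInner f χ ≠ 0 → Cst T χ) : Cst T f := by
  intro t ht h1 t' ht' h1'
  rw [classFun_apply_eq_sum hf t, classFun_apply_eq_sum hf t']
  refine Finset.sum_congr rfl fun χ _ => ?_
  by_cases e : classInner f χ = 0
  · rw [e, zero_mul, zero_mul]
  · rw [h χ χ.2 e t ht h1 t' ht' h1']

end CfsgLib.Sgr
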