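import Cfsg.Agent.Lib.Sgr.Exc
import Cfsg.Agent.Lib.Sgr.Pd
import Cfsg.Agent.Lib.Sgr.Orb2

/-!
Singer normaliser, package ORB1: (α) and the second moment bound.
-/

set_option autoImplicit false
set_option linter.unusedSectionVars false

namespace CfsgLib.Sgr

open Cfsg CfsgLib.Char
open scoped ComplexConjugate

variable {G : Type*} [Group G] [Finite G] {Ω : Type*} [MulAction G Ω] [Finite Ω] {T : Subgroup G}
  {n m g : ℕ}

theorem orb1_class [Fintype Ω] {B : Ω → Ω → ℂ} (hB : ∀ (a : G) x y, B (a • x) (a • y) = B x y) :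
    IsClassFunction G fun a : G => ∑ x, B x (a • x) := fun a b => by
  beta_reduce
  rw [← Equiv.sum_comp (MulAction.toPerm b)]
  exact Finset.sum_congr rfl fun x _ => by simp [mul_smul, hB]

theorem orb1_iff {Γ : Ω → Ω → Prop} (hΓ : ∀ (a : G) x y, Γ x y → Γ (a • x) (a • y)) (a : G) (x y : Ω) :
    Γ (a • x) (a • y) ↔ Γ x y := ⟨fun h => by simpa using hΓ a⁻¹ _ _ h, hΓ a x y⟩

/-- (α) -/
theorem Sit.alpha (h : Sit Ω T n m g) {Γ : Ω → Ω → Prop}
    (hΓ : ∀ (a : G) x y, Γ x y → Γ (a • x) (a • y)) {t t' : G} (ht : t ∈ T) (h1 : t ≠ 1)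
    (ht' : t' ∈ T) (h1' : t' ≠ 1) : {x | Γ x (t • x)}.ncard = {x | Γ x (t' • x)}.ncard := by
  classical
  have := Fintype.ofFinite G
  have := Fintype.ofFinite Ω
  have := cst_of_inner (T := T) (orb1_class (B := fun x y => if Γ x y then 1 else 0) fun a x y => by
    simp only [orb1_iff hΓ]) (fun χ hχ k => h.cst hχ fun e => k (inner_eq_zero hχ e fun x y => if Γ x y then 1 else 0))
    t ht h1 t' ht' h1'
  rw [← Nat.cast_inj (R := ℂ), orb2_ncard, orb2_ncard]
  exact this

theorem Sit.hit (h : Sit Ω T n m g) {x y : Ω} {t t' : G} (ht : t ∈ T) (h1 : t ≠ 1)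
    (ht' : t' ∈ T) (h1' : t' ≠ 1) (hh : Hit t x y) : Hit t' x y := by
  have e := h.alpha (Γ := fun u v => ∃ a : G, a • x = u ∧ a • y = v)
    (fun b u v ⟨a, e1, e2⟩ => ⟨b * a, by rw [mul_smul, e1], by rw [mul_smul, e2]⟩) ht h1 ht' h1'
  obtain ⟨a, ha⟩ := hh
  obtain ⟨_, b, rfl, e2⟩ := Set.nonempty_of_ncard_ne_zero
    (e ▸ Set.ncard_ne_zero_of_mem (s := {u | ∃ a : G, a • x = u ∧ a • y = t • u}) ⟨a, rfl, ha⟩)
  exact ⟨b, e2⟩

/-- second moment bound -/
theorem Sit.moment (h : Sit Ω T n m g) (htr : ∀ x y : Ω, ∃ a : G, a • x = y) {Γ : Ω → Ω → Prop}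
    (hΓ : ∀ (a : G) x y, Γ x y → Γ (a • x) (a • y)) {κ : ℕ} (hκ : ∀ y, {x | Γ y x}.ncard = κ) :
    (m - 1) * {z : Ω × Ω × T | Γ z.1 z.2.1 ∧ Γ z.1 ((z.2.2 : G) • z.2.1)}.ncard ≤
      m * ((m - 1) * κ ^ 2 + g * (g * m * κ)) := by
  classical
  have := Fintype.ofFinite G
  have := Fintype.ofFinite Ω
  have := Fintype.ofFinite T
  have hm : 1 < m := lt_of_le_of_lt (Nat.le_add_left _ _) h.big
  have m0 : (m : ℂ) ≠ 0 := by exact_mod_cast (by omega : m ≠ 0)
  let I : Ω → Ω → ℂ := fun y x => if Γ y x then 1 else 0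
  have hI : ∀ y, ∑ x, I y x = κ := fun y => by rw [← hκ y, orb2_ncard]
  have sh : ∀ (a : G) (f : Ω → ℂ), ∑ x, f (a • x) = ∑ x, f x := fun a f => Equiv.sum_comp (MulAction.toPerm a) f
  have cΩ : ∀ c : ℂ, ∑ _x : Ω, c = g * m * c := fun c => by
    rw [Finset.sum_const, Finset.card_univ, ← Nat.card_eq_fintype_card, h.card_Ω]; simp
  let F : G → ℂ := fun a => ∑ x, ∑ y, I y x * I y (a • x)
  have cF : IsClassFunction G F := orb1_class (B := fun x x' => ∑ y, I y x * I y x') fun a x x' => by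
    rw [← sh a]; simp only [I, orb1_iff hΓ]
  choose s s0 hs using fun χ : IrrCharacter G => pd_nonneg (F := F) (w := fun (i : Ω × Ω) a => I i.2 (a⁻¹ • i.1))
    (fun a b => by
      rw [Fintype.sum_prod_type, ← sh a]
      simp [F, I, mul_smul, apply_ite]) χ.2
  choose N hN using fun χ : IrrCharacter G => exists_classInner_eq_nat (isCharacter_perm Ω) (irr_isCharacter χ)
  choose d _ hd using fun χ : IrrCharacter G => exists_irr_one_eq_nat χ.2
  choose A hA using fun χ : IrrCharacter G =>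
    exists_classInner_eq_nat (isCharacter_restrict T (irr_isCharacter χ)) isCharacter_one
  replace hA : ∀ χ : IrrCharacter G, ∑ t : T, χ.1 t = m * A χ := fun χ => by
    rw [← hA, classInner_one_right, h.card_T, mul_inv_cancel_left₀ m0]
  have sT : ∀ {f : G → ℂ}, IsClassFunction G f →
      ∑ t : T, f t = m * ∑ χ : IrrCharacter G, classInner f χ * A χ := fun {f} hf => by
    rw [Finset.sum_congr rfl fun (t : T) _ => classFun_apply_eq_sum hf t, Finset.sum_comm, Finset.mul_sum]
    exact Finset.sum_congr rfl fun χ _ => by rw [← Finset.mul_sum, hA]; ring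
  have e1 : ∑ χ, N χ * A χ = g := by
    have := sT (isClassFunction_of_isCharacter (isCharacter_perm Ω))
    rw [Finset.sum_eq_single 1 (fun t _ t1 => by
      rw [Nat.cast_eq_zero, Nat.card_eq_zero]
      exact Or.inl ⟨fun x => h.free t t.2 (fun e => t1 (Subtype.ext e)) x x.2⟩) (by simp)] at this
    simp only [hN, OneMemClass.coe_one, MulAction.fixedBy_one_eq_univ, Nat.card_univ, h.card_Ω, Nat.cast_mul,
      mul_comm (g : ℂ), mul_right_inj' m0] at this
    exact_mod_cast this.symm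
  have e2 : ∑ χ, s χ * d χ = g * m * κ := by
    have := classFun_apply_eq_sum cF 1
    simp only [hs, hd, F, one_smul] at this
    rw [Finset.sum_comm, Finset.sum_congr rfl fun y _ => (Finset.sum_congr rfl fun x _ =>
      (by simp [I] : I y x * I y x = I y x)).trans (hI y), cΩ] at this
    exact_mod_cast this.symm
  have e3 : s (irrOne G) = κ ^ 2 := by
    have k : ∀ (f : Ω → ℂ) x x', ∑ a : G, f (a • x) = ∑ a : G, f (a • x') := fun f x x' => by
      obtain ⟨b, rfl⟩ := htr x x'
      simpa only [Equiv.coe_mulRight, mul_smul] using (Equiv.sum_comp (Equiv.mulRight b) fun a => f (a • x)).symm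
    have g0 : (g : ℂ) * m ≠ 0 := mul_ne_zero (by exact_mod_cast h.g_pos.ne') m0
    have k2 : ∀ y x, g * m * ∑ a : G, I y (a • x) = Nat.card G * κ := fun y x => by
      rw [← cΩ, Finset.sum_congr rfl fun x' _ => k (I y) x x', Finset.sum_comm]
      simp [sh, hI]
    have k3 : ∑ a, F a = Nat.card G * κ ^ 2 := mul_left_cancel₀ g0 (by
      simp only [F]
      rw [Finset.sum_comm, Finset.sum_congr rfl fun x _ => Finset.sum_comm, Finset.sum_comm]
      simp only [← Finset.mul_sum]
      rw [Finset.mul_sum, Finset.sum_congr rfl fun y _ => (Finset.mul_sum _ _ _).trans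
        ((Finset.sum_congr rfl fun x _ => by rw [mul_left_comm, k2]).trans (by rw [← Finset.sum_mul, hI])), cΩ]
      ring)
    have := hs (irrOne G)
    rw [irrOne_coe, classInner_one_right, k3, inv_mul_cancel_left₀ natCard_ne_zero] at this
    exact_mod_cast this.symm
  have e4 : ({z : Ω × Ω × T | Γ z.1 z.2.1 ∧ Γ z.1 ((z.2.2 : G) • z.2.1)}.ncard : ℝ) = m * ∑ χ, s χ * A χ := by
    have := sT cF
    simp only [hs, F] at this
    rw [Finset.sum_comm, Finset.sum_congr rfl fun x _ => Finset.sum_comm, Finset.sum_comm] at this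
    rw [← Complex.ofReal_inj]
    push_cast
    rw [← this]
    simp only [orb2_ncard, Fintype.sum_prod_type, I, ite_and, ite_mul, one_mul, zero_mul]
  have e5 : ∀ χ, (m - 1 : ℝ) * (s χ * A χ) ≤ (if χ = irrOne G then (m - 1 : ℝ) * κ ^ 2 else 0) + g * (s χ * d χ) :=
    fun χ => by
      have := s0 χ
      split_ifs with k
      · have a : A χ = 1 := by
          have := hA χ
          simp only [k, irrOne_apply, Finset.sum_const, Finset.card_univ, ← Nat.card_eq_fintype_card, h.card_T,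
            nsmul_eq_mul, mul_right_inj' m0] at this
          rw [k]; exact_mod_cast this.symm
        rw [a, ← e3, ← k, Nat.cast_one, mul_one, le_add_iff_nonneg_right]
        positivity
      by_cases k2 : N χ = 0
      · have : s χ = 0 := by
          have := inner_eq_zero χ.2 ((hN χ).trans (by simp [k2])) fun x x' => ∑ y, I y x * I y x'
          exact_mod_cast (hs χ).symm.trans this
        simp [this]
      have a : (A χ : ℝ) ≤ g := by
        exact_mod_cast (Nat.le_mul_of_pos_left _ (Nat.pos_of_ne_zero k2)).trans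
          (e1 ▸ Finset.single_le_sum (f := fun χ => N χ * A χ) (fun _ _ => Nat.zero_le _) (Finset.mem_univ χ))
      have b : (m : ℝ) ≤ d χ + 1 := by
        exact_mod_cast h.card_T ▸ deg_ge h.cc h.gen (h.card_T ▸ hm) χ.2 (fun e => k (Subtype.ext e))
          (h.cst χ.2 fun e => k2 (by exact_mod_cast (hN χ).symm.trans e)) (hd χ)
      have c := mul_le_mul (sub_le_iff_le_add.2 b) a (by positivity) (by positivity)
      nlinarith
  have e6 := Finset.sum_le_sum fun χ (_ : χ ∈ Finset.univ) => e5 χ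
  rw [Finset.sum_add_distrib, Finset.sum_ite_eq', if_pos (Finset.mem_univ _), ← Finset.mul_sum, ← Finset.mul_sum,
    e2] at e6
  rw [← Nat.cast_le (α := ℝ)]
  push_cast [Nat.cast_sub hm.le]
  rw [e4, mul_left_comm]
  exact mul_le_mul_of_nonneg_left e6 (by positivity)

end CfsgLib.Sgr
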