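import Cfsg.Agent.Lib.Sgr.Num5
import Cfsg.Agent.Lib.Sgr.Orb3
import Cfsg.Agent.Lib.Sgr.Geo

/-!
Singer normaliser, degree at least five: sharper subdegree bounds.
-/

set_option autoImplicit false
set_option linter.unusedSectionVars false

namespace CfsgLib.Sgr

section
variable {G : Type*} [Group G] [Finite G] {Ω : Type*} [MulAction G Ω] [Finite Ω] {T : Subgroup G}
  {n m g : ℕ}

theorem Sit.small5 (h : Sit Ω T n m g) (htr : ∀ x y : Ω, ∃ a : G, a • x = y)
    (hm : g ^ 3 + 1 < m) {x y : Ω} (hh : ∀ t ∈ T, ¬ Hit t x y) : (sub2 G x y).ncard ≤ g ^ 3 := by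
  have h1 := cs_count h.card_T h.free h.card_Ω h.g_pos (orb3_card htr x y)
  rw [(Set.ncard_eq_zero (s := {z : Ω × T | ∃ a : G, a • x = z.1 ∧ a • y = (z.2 : G) • z.1})).2
    (Set.eq_empty_of_forall_notMem fun z ⟨a, e1, e2⟩ => hh _ z.2.2 ⟨a, by rw [e1, e2]⟩)] at h1
  exact arith5_zero hm h1 (h.moment htr (orb3_inv x y) (orb3_card htr x y))

theorem Sit.raw5 {l : ℕ} (h : Sit Ω T n (l + 1) g) (htr : ∀ x y : Ω, ∃ a : G, a • x = y)
    {x y : Ω} (hxy : x ≠ y) {t : G} (ht : t ∈ T) (hh : Hit t x y)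
    (hκ : (sub2 G x y).ncard ≤ l) : (l : ℤ) * (l - (sub2 G x y).ncard) ^ 2 ≤
      g ^ 3 * (l + 1) * (sub2 G x y).ncard := by
  classical
  have := Fintype.ofFinite Ω
  have := Fintype.ofFinite T
  obtain ⟨c, hc⟩ := hh
  have t1 : t ≠ 1 := fun e => hxy (MulAction.injective c (by simpa [e] using hc.symm))
  have h1 := cs_count h.card_T h.free h.card_Ω h.g_pos (orb3_card htr x y)
  refine arith5_raw (f := {u | ∃ a : G, a • x = u ∧ a • y = t • u}.ncard) ?_ ?_
    (h.moment htr (orb3_inv x y) (orb3_card htr x y)) hκ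
  · rw [← h.card_T]
    refine Nat.card_le_card_of_injective (fun s : T => (⟨(s : G) • c • x, s * c, mul_smul _ _ _, by
      rw [mul_smul, hc, smul_smul, h.cc.comm s.2 ht, mul_smul]⟩ :
        {u | ∃ a : G, a • x = u ∧ a • y = t • u})) fun s s' e => by_contra fun ne => ?_
    exact h.free _ (s'⁻¹ * s).2 (fun e => ne (inv_mul_eq_one.1 (Subtype.ext e)).symm) (c • x) (by
      rw [Subgroup.coe_mul, mul_smul, Subgroup.coe_inv, inv_smul_eq_iff]
      exact congrArg Subtype.val e)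
  · convert h1 using 3
    have hT : Fintype.card T = l + 1 := by rw [← Nat.card_eq_fintype_card, h.card_T]
    rw [orb2_ncard, Fintype.sum_prod_type_right, ← Finset.add_sum_erase _ _ (Finset.mem_univ 1),
      Finset.sum_eq_zero fun u _ => if_neg fun ⟨a, e1, e2⟩ =>
        hxy (MulAction.injective a (by simpa [e1] using e2.symm)),
      Finset.sum_congr rfl fun s hs => (orb2_ncard ℤ _).symm.trans (congrArg _
        (h.alpha (orb3_inv x y) s.2 (fun e => Finset.ne_of_mem_erase hs (Subtype.ext e)) ht t1))]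
    simp [hT]

end

open Module CfsgLib.CK

variable {F V : Type*} [Field F] [Finite F] [AddCommGroup V] [Module F V] [Finite V]

/-- an element fixing three points of a line fixes all -/
theorem fix_three {g : V ≃ₗ[F] V} {x y z w : Submodule F V} (hx : (lin F V).rk x = 1)
    (hy : (lin F V).rk y = 1) (hxy : x ≠ y) (hz : (lin F V).rk z = 1) (hzl : z ≤ x ⊔ y)
    (hzx : z ≠ x) (hzy : z ≠ y) (gx : g • x = x) (gy : g • y = y) (gz : g • z = z)
    (hw : w ≤ x ⊔ y) : g • w = w := by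
  obtain ⟨u, hu, rfl⟩ := exists_of_rk hx
  obtain ⟨v, hv, rfl⟩ := exists_of_rk hy
  obtain ⟨s, hs, rfl⟩ := exists_of_rk hz
  have eig : ∀ r : V, g • (F ∙ r) = F ∙ r → ∃ c : F, c • r = g r := fun r e =>
    Submodule.mem_span_singleton.1
      (apply_mem_of_smul_eq e (Submodule.mem_span_singleton_self r))
  have dec : ∀ r ∈ (F ∙ u) ⊔ F ∙ v, ∃ a b : F, a • u + b • v = r := fun r hr => by
    obtain ⟨_, h1, _, h2, rfl⟩ := Submodule.mem_sup.1 hr
    obtain ⟨a, rfl⟩ := Submodule.mem_span_singleton.1 h1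
    obtain ⟨b, rfl⟩ := Submodule.mem_span_singleton.1 h2
    exact ⟨a, b, rfl⟩
  have ne : ∀ {r r' : V} (c : F), r ≠ 0 → r' ≠ 0 → r = c • r' → (F ∙ r) = F ∙ r' :=
    fun c h1 h2 e => (lin F V).eq_of_rk_le ((Submodule.span_singleton_le_iff_mem _ _).2
      (Submodule.mem_span_singleton.2 ⟨c, e.symm⟩)) (by rw [rk_span h1, rk_span h2])
  obtain ⟨α, hα⟩ := eig u gx
  obtain ⟨β, hβ⟩ := eig v gy
  obtain ⟨γ, hγ⟩ := eig s gz
  obtain ⟨a, b, rfl⟩ := dec s (hzl (Submodule.mem_span_singleton_self s))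
  have ha : a ≠ 0 := by rintro rfl; exact hzy (ne b hs hv (by simp))
  have hb : b ≠ 0 := by rintro rfl; exact hzx (ne a hs hu (by simp))
  have h1 : (a * (γ - α)) • u = (b * (β - γ)) • v := by
    rw [map_add, map_smul, map_smul, ← hα, ← hβ] at hγ
    linear_combination (norm := module) hγ
  have h2 : γ = α := by
    by_contra h
    have h3 := mul_ne_zero ha (sub_ne_zero.2 h)
    exact hxy (ne ((a * (γ - α))⁻¹ * (b * (β - γ))) hu hv (by
      rw [mul_smul, ← h1, inv_smul_smul₀ h3]))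
  subst h2
  rw [sub_self, mul_zero, zero_smul] at h1
  obtain rfl : β = γ :=
    sub_eq_zero.1 ((mul_eq_zero.1 ((smul_eq_zero.1 h1.symm).resolve_right hv)).resolve_left hb)
  refine smul_eq_of_le fun r hr => ?_
  obtain ⟨c, d, rfl⟩ := dec r (hw hr)
  rw [map_add, map_smul, map_smul, ← hα, ← hβ, smul_comm c, smul_comm d, ← smul_add]
  exact Submodule.smul_mem _ _ hr

theorem orb_le_line5 {Y : Subgroup (V ≃ₗ[F] V)} (htr : Tr Y {x | (lin F V).rk x = 1})
    {x y x' y' : Submodule F V} (hx : (lin F V).rk x = 1) (hy : (lin F V).rk y = 1) (hxy : x ≠ y)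
    (hx' : (lin F V).rk x' = 1) (hl : x ⊔ y = x' ⊔ y') :
    (orb (Stab Y x') y').ncard ≤ (Nat.card F - 1) * (orb (Stab Y x) y).ncard := by
  have r2 := (lin F V).rk_sup_pts hx hy hxy
  have h1 := geo_card (Stab Y x) y
  have h2 := geo_card (Stab Y x') y'
  have h3 : Nat.card (Stab Y x') = Nat.card (Stab Y x) := by
    obtain ⟨g, hg, rfl⟩ := htr x hx x' hx'
    rw [← cj_Stab_of_mem hg, CfsgLib.Tech.card_cj]
  have h4 : ({z | (lin F V).rk z = 1 ∧ z ≤ x ⊔ y ∧ z ≠ x} \ {y}).ncard = Nat.card F - 1 := by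
    rw [Set.ncard_diff_singleton_of_mem (by exact ⟨hy, le_sup_right, hxy.symm⟩),
      geo_line hx r2 le_sup_left, lin_q]
  obtain ⟨z, ⟨hz, hzl, hzx⟩, hzy⟩ := Set.nonempty_of_ncard_ne_zero (s := ({z | (lin F V).rk z = 1 ∧
    z ≤ x ⊔ y ∧ z ≠ x} \ {y})) (by have := Finite.one_lt_card (α := F); omega)
  have h5 := geo_card (Stab (Stab Y x) y) z
  have h6 : (orb (Stab (Stab Y x) y) z).ncard ≤ Nat.card F - 1 := by
    rw [← h4]
    refine Set.ncard_le_ncard ?_
    rintro _ ⟨g, hg, rfl⟩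
    have gx := (mem_Stab.1 hg.1).2
    have gy := (mem_Stab.1 hg).2
    refine ⟨⟨by rw [PG.rk_smul, hz], ?_, fun e => hzx (smul_left_cancel g (e.trans gx.symm))⟩,
      fun e => hzy (smul_left_cancel g (e.trans gy.symm))⟩
    have := (lin F V).smul_mono g hzl
    rwa [(lin F V).smul_sup, gx, gy] at this
  have h7 : Nat.card (Stab (Stab (Stab Y x) y) z) ≤ Nat.card (Stab (Stab Y x') y') :=
    Subgroup.card_le_of_le fun g hg => by
      have k := fun w => fix_three (w := w) hx hy hxy hz hzl hzx hzy (mem_Stab.1 hg.1.1).2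
        (mem_Stab.1 hg.1).2 (mem_Stab.1 hg).2
      exact ⟨⟨hg.1.1.1, k x' (hl ▸ le_sup_left)⟩, k y' (hl ▸ le_sup_right)⟩
  refine Nat.le_of_mul_le_mul_left ?_ (Nat.card_pos (α := Stab (Stab Y x') y'))
  rw [h2, h3, ← h1, ← mul_assoc, ← h5]
  exact Nat.mul_le_mul_right _ (Nat.mul_le_mul h7 h6)

end CfsgLib.Sgr
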