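import Cfsg.Agent.Lib.Sgr.Orb5
import Cfsg.Agent.Lib.Sgr.Lines

/-!
Singer normaliser, degree at least five: the abstract situation.
-/

set_option autoImplicit false
set_option linter.unusedSectionVars false

namespace CfsgLib.Sgr

open Module CfsgLib.CK CfsgLib.ClMax

variable {F K : Type*} [Field F] [Finite F] [Field K] [Finite K] [Algebra F K]
  {H : Subgroup (K ≃ₗ[F] K)} {n : ℕ}

theorem card_ne_six : Nat.card F ≠ 6 := fun h => by
  have := Fintype.ofFinite F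
  obtain ⟨f, hp, hf⟩ := FiniteField.card F (ringChar F)
  rw [← Nat.card_eq_fintype_card, h] at hf
  have h2 := (Nat.prime_dvd_prime_iff_eq Nat.prime_two hp).1
    (Nat.prime_two.dvd_of_dvd_pow (hf ▸ (by norm_num : 2 ∣ 6)))
  have h3 := (Nat.prime_dvd_prime_iff_eq Nat.prime_three hp).1
    (Nat.prime_three.dvd_of_dvd_pow (hf ▸ (by norm_num : 3 ∣ 6)))
  omega

/-- `ΓL₁ ⊓ SL < H ≤ SL` -/
structure Hyp5 (H : Subgroup (K ≃ₗ[F] K)) (n : ℕ) : Prop where
  rank : finrank F K = n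
  prime : n.Prime
  big : 5 ≤ n
  det : ∀ a ∈ H, LinearMap.det (a : K →ₗ[F] K) = 1
  semi : ∀ a : K ≃ₗ[F] K, LinearMap.det (a : K →ₗ[F] K) = 1 → Semi (a : K →ₗ[F] K) → a ∈ H
  ns : ∃ a ∈ H, ¬ Semi (a : K →ₗ[F] K)

theorem Hyp5.T0_le (h : Hyp5 H n) : T0 F K ≤ H := by
  rintro a ⟨t, -, hN, ha⟩
  exact h.semi a (by rw [det_of_mul ha, hN]) (semi_of_eq (c := t) (σ := 1) ha)

theorem Hyp5.gal_mem (h : Hyp5 H n) (σ : K ≃ₐ[F] K) :
    σ.toLinearEquiv ∈ H := by
  refine h.semi _ (det_gal ?_ σ) (semi_of_eq (c := 1) (σ := σ) fun x => (one_mul _).symm)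
  rw [h.rank]
  exact h.prime.odd_of_ne_two (by have := h.big; omega)

theorem Hyp5.tr (h : Hyp5 H n) :
    Tr H {x : Submodule F K | finrank F x = 1} := by
  classical
  intro x hx y hy
  obtain ⟨u, hu, rfl⟩ := exists_of_rk (F := F) (x := x) (by rw [lin_rk]; exact hx)
  obtain ⟨v, hv, rfl⟩ := exists_of_rk (F := F) (x := y) (by rw [lin_rk]; exact hy)
  by_cases hq : n ∣ Nat.card F - 1
  swap
  · obtain ⟨a, ha, h1⟩ := cls_one h.rank h.prime hq hu hv
    exact ⟨a, h.T0_le ha, h1⟩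
  by_contra hcon
  obtain ⟨e, he⟩ := hq
  have he' : n * e + 1 = Nat.card F := by have := Nat.card_pos (α := F); omega
  have hn0 : 0 < n := h.prime.pos
  let O : K → Prop := fun w => ∃ g ∈ H, g • (F ∙ u) = F ∙ w
  let J : F → Prop := fun z => ∃ w, w ≠ 0 ∧ O w ∧ Algebra.norm F w ^ e = z
  have hJ : ∀ w, w ≠ 0 → (J (Algebra.norm F w ^ e) ↔ O w) := by
    refine fun w hw => ⟨?_, fun h1 => ⟨w, hw, h1, rfl⟩⟩
    rintro ⟨w', hw', ⟨g, hg, h1⟩, h2⟩
    obtain ⟨a, ha, h3⟩ := cls_eq h.rank he' hw' hw h2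
    exact ⟨a * g, mul_mem (h.T0_le ha) hg, by rw [mul_smul, h1, h3]⟩
  let s : Finset F := Polynomial.nthRootsFinset n (1 : F)
  have hs : ∀ w : K, w ≠ 0 → Algebra.norm F w ^ e ∈ s := fun w hw => by
    have := Fintype.ofFinite F
    rw [Polynomial.mem_nthRootsFinset hn0, ← pow_mul, mul_comm, ← he, Nat.card_eq_fintype_card]
    exact FiniteField.pow_card_sub_one_eq_one _ (Algebra.norm_ne_zero_iff.2 hw)
  let ψ : Polynomial F := Lagrange.interpolate s id fun z => if J z then 1 else 0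
  have hψ : ∀ w : K, w ≠ 0 → ψ.eval (Algebra.norm F w ^ e) = if O w then 1 else 0 := fun w hw => by
    have := Lagrange.eval_interpolate_at_node (s := s) (v := id)
      (fun z => if J z then (1 : F) else 0) (Function.injective_id.injOn) (hs w hw)
    exact this.trans (if_congr (hJ w hw) rfl rfl)
  have h1 : ψ.eval (Algebra.norm F u ^ e) = 1 := by
    rw [hψ u hu, if_pos ⟨1, one_mem _, one_smul _ _⟩]
  have h2 : ψ.eval (Algebra.norm F v ^ e) = 0 := by rw [hψ v hv, if_neg hcon]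
  have h0 : 0 < ψ.natDegree := Nat.pos_of_ne_zero fun h3 => by
    rw [Polynomial.eq_C_of_natDegree_eq_zero h3, Polynomial.eval_C] at h1 h2
    exact one_ne_zero (h1.symm.trans h2)
  have hlt : ψ.natDegree < n := by
    have h3 : ψ ≠ 0 := fun h3 => by simp [h3] at h0
    have h4 : s.card ≤ n := (Multiset.toFinset_card_le _).trans (Polynomial.card_nthRoots n 1)
    exact ((Polynomial.natDegree_lt_iff_degree_lt h3).2
      (Lagrange.degree_interpolate_lt _ Function.injective_id.injOn)).trans_le h4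
  obtain ⟨a, ha, hns⟩ := h.ns
  refine hns (semi_of_poly h.rank (by have := h.big; omega) he' h0 hlt fun w => ?_)
  by_cases hw : w = 0
  · rw [hw, map_zero]
  have hw' : a w ≠ 0 := fun e => hw (a.injective (e.trans (map_zero a).symm))
  have h5 : O (a w) ↔ O w := by
    constructor
    · rintro ⟨g, hg, h3⟩
      exact ⟨a⁻¹ * g, mul_mem (inv_mem ha) hg, by
        rw [mul_smul, h3, ← smul_span, inv_smul_smul]⟩
    · rintro ⟨g, hg, h3⟩
      exact ⟨a * g, mul_mem ha hg, by rw [mul_smul, h3, smul_span]⟩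
  rw [hψ w hw, hψ _ hw', h5]

theorem Hyp5.fra_odd (h : Hyp5 H n) : Odd (finrank F K) := by
  rw [h.rank]
  exact h.prime.odd_of_ne_two (by have := h.big; omega)

theorem Hyp5.cc (h : Hyp5 H n) : IsCC (TT H) := by
  intro t ht h1
  obtain ⟨a, s, hN, ha, hs, hat⟩ := fra_lift ht h1
  ext b
  rw [Subgroup.mem_centralizer_singleton_iff]
  constructor
  · intro hb
    obtain ⟨g, hg, hgb⟩ := b.2
    obtain ⟨c, -, hc⟩ := fra_phi_eq (a := g * a) (b := a * g) (by
      rw [map_mul, map_mul, hgb, hat]; exact congrArg Subtype.val hb)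
    simp only [LinearEquiv.mul_apply, ha] at hc
    obtain ⟨c0, σ, h0⟩ := (semi_of_conj (h.rank ▸ h.prime) (a := (g : K →ₗ[F] K)) (t' := c • s) hs
      fun x => by simpa using hc x).exists_eq
    simp only [LinearEquiv.coe_coe] at h0
    have hc0 : c0 ≠ 0 := by
      rintro rfl
      exact one_ne_zero (g.injective (by rw [h0, zero_mul, map_zero]) : (1 : K) = 0)
    have h2 : σ s = c • s := by
      have h3 := hc 1
      rw [h0, h0, mul_one, map_one, mul_one, mul_comm s, ← mul_smul_comm] at h3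
      exact mul_left_cancel₀ hc0 h3
    have h3 := gal_eq_one (h.rank ▸ h.prime) h.fra_odd hs hN h2
    subst h3
    exact fra_mem.2 ⟨g, ⟨c0, hc0, by rw [← det_of_mul h0, h.det g hg], h0⟩, hgb⟩
  · intro hb
    obtain ⟨g, ⟨s', -, -, hg⟩, hgb⟩ := fra_mem.1 hb
    apply Subtype.ext
    rw [Subgroup.coe_mul, Subgroup.coe_mul, ← hgb, ← hat, ← map_mul, ← map_mul]
    congr 1
    ext x
    simp only [LinearEquiv.mul_apply, ha, hg, mul_left_comm]

theorem Hyp5.free (h : Hyp5 H n) : ∀ t ∈ TT H, t ≠ 1 → ∀ x : Pts F K, t • x ≠ x := by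
  intro t ht h1 x hx
  obtain ⟨a, s, -, ha, hs, hat⟩ := fra_lift ht h1
  rw [GG_smul t hat] at hx
  exact hs (mem_range_of_fix ha x.2 (congrArg Subtype.val hx))

theorem Hyp5.semi_of_norm (h : Hyp5 H n) (hT : TT H ≠ ⊥) {a : K ≃ₗ[F] K} {b : GG H}
    (hab : phi F K a = b) (hb : b ∈ Subgroup.normalizer ((TT H : Subgroup (GG H)) : Set (GG H))) :
    Semi (a : K →ₗ[F] K) := by
  obtain ⟨⟨t, ht⟩, h1⟩ := (Subgroup.ne_bot_iff_exists_ne_one).1 hT
  obtain ⟨a0, s, -, ha0, hs, hat⟩ := fra_lift ht fun e => h1 (Subtype.ext e)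
  obtain ⟨a', ⟨s', -, -, ha'⟩, hat'⟩ := fra_mem.1 ((Subgroup.mem_normalizer_iff.1 hb t).1 ht)
  obtain ⟨c, -, hc⟩ := fra_phi_eq (a := a * a0) (b := a' * a) (by
    rw [map_mul, map_mul, hab, hat, hat']
    simp)
  simp only [LinearEquiv.mul_apply, ha0, ha'] at hc
  exact semi_of_conj (h.rank ▸ h.prime) (t' := c • s') hs fun x => by simpa using hc x

theorem Hyp5.not_normal (h : Hyp5 H n) (hT : TT H ≠ ⊥) : ¬ (TT H).Normal := by
  intro hN
  obtain ⟨a, ha, hns⟩ := h.ns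
  exact hns (h.semi_of_norm hT (b := ⟨phi F K a, Subgroup.mem_map_of_mem _ ha⟩) rfl
    (by rw [Subgroup.normalizer_eq_top]; trivial))

theorem Hyp5.fra_gal (h : Hyp5 H n) (σ : K ≃ₐ[F] K) :
    (⟨phi F K σ.toLinearEquiv, Subgroup.mem_map_of_mem _ (h.gal_mem σ)⟩ : GG H) ∈
      Subgroup.normalizer ((TT H : Subgroup (GG H)) : Set (GG H)) := by
  refine Subgroup.mem_normalizer_fintype fun t ht => ?_
  obtain ⟨a, ⟨s, hs0, hN, ha⟩, hat⟩ := fra_mem.1 ht
  refine fra_mem.2 ⟨σ.toLinearEquiv * a * σ.toLinearEquiv⁻¹, ⟨σ s, (map_ne_zero _).2 hs0,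
    by rw [Algebra.norm_eq_of_algEquiv, hN], fun x => ?_⟩, ?_⟩
  · rw [LinearEquiv.mul_apply, LinearEquiv.mul_apply, ha]
    show σ (s * σ.symm x) = _
    rw [map_mul, AlgEquiv.apply_symm_apply]
  · rw [map_mul, map_mul, map_inv, hat]
    rfl

theorem Hyp5.idx (h : Hyp5 H n) (hT : TT H ≠ ⊥) :
    (TT H).relIndex (Subgroup.normalizer ((TT H : Subgroup (GG H)) : Set (GG H))) = n := by
  rw [← h.rank, ← card_gal]
  symm
  refine Nat.card_eq_of_bijective (fun σ : K ≃ₐ[F] K =>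
    (QuotientGroup.mk ⟨_, h.fra_gal σ⟩ : _ ⧸ (TT H).subgroupOf _)) ⟨fun σ τ e => ?_, fun b => ?_⟩
  · obtain ⟨a, ⟨s, -, -, ha⟩, h1⟩ := fra_mem.1 (Subgroup.mem_subgroupOf.1 (QuotientGroup.eq.1 e))
    obtain ⟨c, -, hc⟩ := fra_phi_eq (a := τ.toLinearEquiv) (b := σ.toLinearEquiv * a) (by
      rw [map_mul, h1]
      simp)
    simp only [LinearEquiv.mul_apply, ha, AlgEquiv.toLinearEquiv_apply, map_mul] at hc
    ext x
    have h2 := hc 1
    rw [map_one, map_one, mul_one] at h2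
    rw [hc, ← smul_mul_assoc, ← h2, one_mul]
  · obtain ⟨⟨b, hb⟩, rfl⟩ := QuotientGroup.mk_surjective b
    obtain ⟨g, hg, hgb⟩ := b.2
    obtain ⟨c, σ, hc⟩ := (h.semi_of_norm hT hgb hb).exists_eq
    simp only [LinearEquiv.coe_coe] at hc
    have hc0 : c ≠ 0 := by
      rintro rfl
      exact one_ne_zero (g.injective (by rw [hc, zero_mul, map_zero]) : (1 : K) = 0)
    have h1 : ∀ x, (σ.toLinearEquiv⁻¹ * g) x = σ.symm c * x := fun x => by
      rw [LinearEquiv.mul_apply, hc]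
      show σ.symm _ = _
      rw [map_mul, AlgEquiv.symm_apply_apply]
    refine ⟨σ, QuotientGroup.eq.2 (Subgroup.mem_subgroupOf.2 (fra_mem.2
      ⟨σ.toLinearEquiv⁻¹ * g, ⟨σ.symm c, (map_ne_zero _).2 hc0, ?_, h1⟩, ?_⟩))⟩
    · rw [← det_of_mul h1, h.det _ (mul_mem (inv_mem (h.gal_mem σ)) hg)]
    · rw [map_mul, map_inv, hgb]
      rfl

theorem Hyp5.frb_card (h : Hyp5 H n) :
    Nat.card (rootsOfUnity n F) * Nat.card (TT H) = th (Nat.card F) n := by
  let f : T0 F K →* Equiv.Perm (Pts F K) := (phi F K).comp (T0 F K).subtype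
  have h1 := f.ker.card_mul_index
  rw [Subgroup.index_ker, MonoidHom.range_comp, Subgroup.range_subtype, card_T0, h.rank,
    ← Nat.card_congr (Subgroup.subgroupOfEquivOfLe (Subgroup.map_mono h.T0_le)).toEquiv] at h1
  rw [← h1]
  congr 1
  have h0 : ∀ c : rootsOfUnity n F, algebraMap F K (c.1 : F) ≠ 0 := fun c =>
    (map_ne_zero _).2 c.1.ne_zero
  refine Nat.card_eq_of_bijective (fun c : rootsOfUnity n F => (⟨⟨mulE F _ (h0 c), mulE_mem _ (by
    rw [Algebra.norm_algebraMap, h.rank]; exact (mem_rootsOfUnity' _ _).1 c.2)⟩,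
      phi_eq_one_iff.2 ⟨_, c.1.ne_zero, fun x => (Algebra.smul_def _ _).symm⟩⟩ : f.ker))
    ⟨fun c d e => ?_, ?_⟩
  · have h3 := LinearEquiv.congr_fun (congrArg Subtype.val (congrArg Subtype.val e)) 1
    exact Subtype.ext (Units.ext (by simpa using h3))
  · rintro ⟨⟨a, ha⟩, hk⟩
    obtain ⟨c, hc0, hc⟩ := phi_eq_one_iff.1 (show phi F K a = 1 from hk)
    have h3 : ∀ x, a x = algebraMap F K c * x := fun x => by rw [hc, Algebra.smul_def]
    have h4 := h.det a (h.T0_le ha)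
    rw [det_of_mul h3, Algebra.norm_algebraMap, h.rank] at h4
    exact ⟨⟨Units.mk0 c hc0, (mem_rootsOfUnity' _ _).2 h4⟩,
      Subtype.ext (Subtype.ext (LinearEquiv.ext fun x => (h3 x).symm))⟩

theorem Hyp5.card_one (h : Hyp5 H n) (hq : ¬ n ∣ Nat.card F - 1) :
    Nat.card (TT H) = th (Nat.card F) n := by
  have h1 : rootsOfUnity n F = ⊥ := by
    rw [eq_bot_iff]
    intro c hc
    have h2 := orderOf_dvd_natCard c
    rw [Nat.card_units] at h2
    rcases (Nat.dvd_prime h.prime).1 (orderOf_dvd_of_pow_eq_one ((mem_rootsOfUnity _ _).1 hc)) with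
      h3 | h3
    · exact orderOf_eq_one_iff.1 h3
    · exact absurd (h3 ▸ h2) hq
  rw [← h.frb_card, h1, Subgroup.card_bot, one_mul]

theorem Hyp5.card_n (h : Hyp5 H n) (hq : n ∣ Nat.card F - 1) :
    n * Nat.card (TT H) = th (Nat.card F) n := by
  obtain ⟨-, ζ, -, -, hz, -⟩ := exists_theta h.rank h.prime (h.rank ▸ h.fra_odd) hq
  have : NeZero n := ⟨h.prime.ne_zero⟩
  rw [← h.frb_card, hz.card_rootsOfUnity]

theorem Hyp5.fix (h : Hyp5 H n) (a : GG H) (ha : a ≠ 1) :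
    Nat.card (MulAction.fixedBy (Pts F K) a) ≤ th (Nat.card F) (n - 1) + Nat.card F := by
  obtain ⟨g, -, hg⟩ := a.2
  obtain ⟨x, hx⟩ : ∃ x : Pts F K, g • x ≠ x := by
    by_contra! h1
    exact ha (Subtype.ext (hg.symm.trans (Equiv.ext h1)))
  have h1 := fix_le (P := lin F K) (a := g) (x := x.1) (by rw [lin_rk, x.2])
    fun e => hx (Subtype.ext e)
  rw [lin_n, h.rank] at h1
  refine le_trans (le_of_eq ?_) h1
  rw [Nat.card_coe_set_eq, ← Set.ncard_image_of_injective _ Subtype.val_injective]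
  congr 1
  ext y
  simp only [Set.mem_image, MulAction.mem_fixedBy, Set.mem_ofPred_eq, lin_rk, GG_smul a hg]
  constructor
  · rintro ⟨z, hz, rfl⟩
    exact ⟨z.2, congrArg Subtype.val hz⟩
  · rintro ⟨h2, h3⟩
    exact ⟨⟨y, h2⟩, Subtype.ext h3, rfl⟩

theorem Hyp5.sit_one (h : Hyp5 H n) (hq : ¬ n ∣ Nat.card F - 1) :
    Sit (Pts F K) (TT H) n (Nat.card (TT H)) 1 := by
  obtain ⟨h1, h2⟩ := num5_one (q := Nat.card F) Finite.one_lt_card h.big
  rw [← h.card_one hq] at h1 h2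
  have hT : TT H ≠ ⊥ := fun e => by
    rw [e, Subgroup.card_bot] at h1
    omega
  exact ⟨h.cc, rfl, h.idx hT, h.prime, h.free, by rw [card_pts, h.rank, h.card_one hq, one_mul],
    one_pos, h1, fun a ha => by have := h.fix a ha; omega, h.not_normal hT⟩

theorem Hyp5.sit_n (h : Hyp5 H n) (hq : n ∣ Nat.card F - 1) :
    Sit (Pts F K) (TT H) n (Nat.card (TT H)) n := by
  have h0 : 1 < Nat.card F := Finite.one_lt_card
  obtain ⟨h1, h2⟩ := num5_n h.prime h.big hq h0 card_ne_six (h.card_n hq)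
  have hT : TT H ≠ ⊥ := fun e => by
    rw [e, Subgroup.card_bot] at h1
    omega
  exact ⟨h.cc, rfl, h.idx hT, h.prime, h.free, by rw [card_pts, h.rank, h.card_n hq],
    h.prime.pos, h1, fun a ha => by have := h.fix a ha; omega, h.not_normal hT⟩

end CfsgLib.Sgr
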