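import Cfsg.Agent.Lib.Sgr.Sit5

/-!
Singer normaliser, degree at least five: 2-transitivity.
-/

set_option autoImplicit false
set_option linter.unusedSectionVars false

namespace CfsgLib.Sgr

open Module CfsgLib.CK CfsgLib.ClMax

variable {F K : Type*} [Field F] [Finite F] [Field K] [Finite K] [Algebra F K]
  {H : Subgroup (K ≃ₗ[F] K)} {n : ℕ}

theorem Hyp5.exists_sit (h : Hyp5 H n) : ∃ g, Sit (Pts F K) (TT H) n (Nat.card (TT H)) g := by
  by_cases hq : n ∣ Nat.card F - 1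
  · exact ⟨_, h.sit_n hq⟩
  · exact ⟨_, h.sit_one hq⟩

theorem Hyp5.gg_tr (h : Hyp5 H n) (x y : Pts F K) : ∃ a : GG H, a • x = y := by
  obtain ⟨a, ha, e⟩ := h.tr x.1 x.2 y.1 y.2
  exact ⟨gg ha, Subtype.ext e⟩

theorem Hyp5.hit (h : Hyp5 H n) {x y : Submodule F K} (hx : finrank F x = 1) (hy : finrank F y = 1)
    (hxy : x ≠ y) {a t : K ≃ₗ[F] K} (ha : a ∈ H) (ht : t ∈ T0 F K) (e : a • y = t • a • x)
    {t' : K ≃ₗ[F] K} (ht' : t' ∈ T0 F K) {z : Submodule F K} (hz : finrank F z = 1)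
    (hz' : t' • z ≠ z) : ∃ a' ∈ H, a' • y = t' • a' • x := by
  obtain ⟨g, hs⟩ := h.exists_sit
  have h1 : gg (h.T0_le ht) ≠ 1 := fun e1 => by
    have h2 : t • a • x = a • x :=
      congrArg Subtype.val (show gg (h.T0_le ht) • a • (⟨x, hx⟩ : Pts F K) = a • ⟨x, hx⟩ by
        rw [e1, one_smul])
    rw [h2] at e
    exact hxy (smul_left_cancel a e).symm
  have h1' : gg (h.T0_le ht') ≠ 1 := fun e1 => hz' (congrArg Subtype.val
    (show gg (h.T0_le ht') • (⟨z, hz⟩ : Pts F K) = ⟨z, hz⟩ by rw [e1, one_smul]))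
  exact (hit_iff (h.T0_le ht') ⟨x, hx⟩ ⟨y, hy⟩).1 (hs.hit (gg_mem _ ht) h1 (gg_mem _ ht') h1'
    ((hit_iff (h.T0_le ht) ⟨x, hx⟩ ⟨y, hy⟩).2 ⟨a, ha, e⟩))

theorem Hyp5.small (h : Hyp5 H n) (hq : n ∣ Nat.card F - 1) {x y : Submodule F K}
    (hx : finrank F x = 1) (hy : finrank F y = 1)
    (hh : ∀ a ∈ H, ∀ t ∈ T0 F K, a • y ≠ t • a • x) : (orb (Stab H x) y).ncard ≤ n ^ 3 := by
  rw [← ncard_sub2 (H := H) ⟨x, hx⟩ ⟨y, hy⟩]
  refine (h.sit_n hq).small5 h.gg_tr (lt_of_le_of_lt (by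
    rw [show (n * n) ^ 2 = n ^ 4 by ring]
    exact Nat.succ_le_succ (Nat.pow_le_pow_right h.prime.pos (by omega))) (h.sit_n hq).big)
    fun b hb hh' => ?_
  obtain ⟨t, ht, e⟩ := Subgroup.mem_subgroupOf.1 hb
  have e' : gg (h.T0_le ht) = b := Subtype.ext e
  rw [← e'] at hh'
  obtain ⟨a, ha, e⟩ := (hit_iff _ _ _).1 hh'
  exact hh a ha t ht e

theorem Hyp5.large (h : Hyp5 H n) (hq : n ∣ Nat.card F - 1) {x y : Submodule F K}
    (hx : finrank F x = 1) (hy : finrank F y = 1) (hxy : x ≠ y) {a t : K ≃ₗ[F] K} (ha : a ∈ H)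
    (ht : t ∈ T0 F K) (e : a • y = t • a • x) :
    Big5 (Nat.card F) n (orb (Stab H x) y).ncard := by
  have hs := h.sit_n hq
  have hm := h.card_n hq
  obtain ⟨l, hl⟩ : ∃ l, Nat.card (TT H) = l + 1 := ⟨_, (Nat.sub_add_cancel Nat.card_pos).symm⟩
  rw [hl] at hs hm
  rw [← ncard_sub2 (H := H) ⟨x, hx⟩ ⟨y, hy⟩]
  exact num5_big h.prime h.big hq Finite.one_lt_card card_ne_six hm (hs.raw5 h.gg_tr
    (fun e => hxy (congrArg Subtype.val e)) (gg_mem (h.T0_le ht) ht)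
    ((hit_iff (h.T0_le ht) ⟨x, hx⟩ ⟨y, hy⟩).2 ⟨a, ha, e⟩))

theorem Hyp5.two_one (h : Hyp5 H n) (hq : ¬ n ∣ Nat.card F - 1) : (lin F K).Two H ⊥ ⊤ := by
  have tr : ∀ x y : Submodule F K, (lin F K).rk x = 1 → (lin F K).rk y = 1 →
      ∃ s ∈ T0 F K, s • x = y := fun x y hx hy => by
    obtain ⟨u, hu, rfl⟩ := exists_of_rk hx
    obtain ⟨v, hv, rfl⟩ := exists_of_rk hy
    exact cls_one h.rank h.prime hq hu hv
  refine ⟨bot_le, (lin F K).fx_bot H, (lin F K).fx_top H, fun x y x' y' hx hy hxy hx' hy' hxy' => ?_⟩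
  rw [PG.pt_bot_top] at hx hy hx' hy'
  obtain ⟨t, ht, e⟩ := tr x y hx hy
  obtain ⟨t', ht', e'⟩ := tr x' y' hx' hy'
  obtain ⟨a, ha, e1⟩ := h.hit (lin_rk x ▸ hx) (lin_rk y ▸ hy) hxy (one_mem H) ht
    (by rw [one_smul, one_smul, e]) ht' (lin_rk x' ▸ hx') (by rw [e']; exact hxy'.symm)
  obtain ⟨s, hs, e2⟩ := tr (a • x) x' (by rw [PG.rk_smul]; exact hx) hx'
  refine ⟨s * a, mul_mem (h.T0_le hs) ha, by rw [mul_smul, e2], ?_⟩
  rw [mul_smul, e1, ← mul_smul s, T0_comm hs ht', mul_smul, e2, e']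

/-- every orbital is large -/
theorem Hyp5.all_hit (h : Hyp5 H n) (hq : n ∣ Nat.card F - 1) {x y : Submodule F K}
    (hx : finrank F x = 1) (hy : finrank F y = 1) (hxy : x ≠ y) :
    ∃ a ∈ H, ∃ t ∈ T0 F K, a • y = t • a • x := by
  by_contra! hh
  have h1 := h.small hq hx hy hh
  have hx' : (lin F K).rk x = 1 := (lin_rk x).trans hx
  have hy' : (lin F K).rk y = 1 := (lin_rk y).trans hy
  obtain ⟨z, t, ht, hz, hzt, e⟩ := exists_pair h.rank h.prime.pos hq (l := x ⊔ y)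
    (by rw [← lin_rk]; exact (lin F K).rk_sup_pts hx' hy' hxy)
  have hz2 : finrank F ↥(t • z) = 1 := by rw [finrank_smul, hz]
  have h2 := (h.large hq hz hz2 hzt.symm (one_mem H) ht (by rw [one_smul, one_smul])).1
  have h3 := orb_le_line5 (Y := H) (by simpa only [lin_rk] using h.tr) hx' hy' hxy
    ((lin_rk z).trans hz) e.symm
  exact absurd (h3.trans (Nat.mul_le_mul_left _ h1)) h2.not_ge

theorem Hyp5.large' (h : Hyp5 H n) (hq : n ∣ Nat.card F - 1) {x y : Submodule F K}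
    (hx : finrank F x = 1) (hy : finrank F y = 1) (hxy : x ≠ y) :
    Big5 (Nat.card F) n (orb (Stab H x) y).ncard := by
  obtain ⟨a, ha, t, ht, e⟩ := h.all_hit hq hx hy hxy
  exact h.large hq hx hy hxy ha ht e

theorem Hyp5.lt_eig (h : Hyp5 H n) (hq : n ∣ Nat.card F - 1) {u v : K} (hu : u ≠ 0) (hv : v ≠ 0)
    (huv : (F ∙ u) ≠ F ∙ v) {a : K ≃ₗ[F] K} (ha : a ∈ H) {α β : F} (hau : a u = α • u)
    (hav : a v = β • v) (hζ : IsPrimitiveRoot (α / β) n) :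
    LT (lin F K) H (F ∙ u) ((F ∙ u) ⊔ F ∙ v) := by
  refine trl hu hv huv ha hau hav h.prime hζ ?_
  have h1 := h.large' hq (finrank_span_singleton hu) (finrank_span_singleton hv) huv
  have h2 := orb_le_mul (P := lin F K) (Y := H) (rk_span hu) (rk_span hv) huv
  simp only [PG.θ, lin_q, lin_n, h.rank] at h2
  exact h1.2.1 _ h2

theorem Hyp5.lt (h : Hyp5 H n) (hq : n ∣ Nat.card F - 1) {x l : Submodule F K}
    (hx : finrank F x = 1) (hl : finrank F l = 2) (hxl : x ≤ l) : LT (lin F K) H x l := by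
  have hb := h.big
  obtain ⟨ϑ, ζ, σ, h0, hζ, hσ, hcl⟩ := exists_theta h.rank h.prime
    (h.prime.odd_of_ne_two (by omega)) hq
  have hζ0 : ζ ≠ 0 := hζ.ne_zero (by omega)
  have hζ1 : ζ ≠ 1 := hζ.ne_one (by omega)
  have hσi : ∀ i : ℕ, σ.toLinearEquiv (ϑ ^ i) = ζ ^ i • ϑ ^ i := fun i => by
    rw [AlgEquiv.toLinearEquiv_apply, map_pow, hσ, smul_pow]
  have hne : ∀ i : ℕ, (F ∙ ϑ ^ i) ≠ F ∙ ϑ ^ (i + 1) := fun i e => by
    obtain ⟨c, hc⟩ := Submodule.mem_span_singleton.1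
      (e ▸ Submodule.mem_span_singleton_self (ϑ ^ (i + 1)) : ϑ ^ (i + 1) ∈ F ∙ ϑ ^ i)
    have h1 : algebraMap F K c = ϑ := by
      rw [Algebra.smul_def, pow_succ'] at hc
      exact mul_right_cancel₀ (pow_ne_zero i h0) hc
    have h2 : ζ • ϑ = (1 : F) • ϑ := by rw [← hσ, one_smul, ← h1, AlgEquiv.commutes]
    exact hζ1 (smul_left_injective F h0 h2)
  -- the standard lines
  have hstd : ∀ (i : ℕ) (w : Submodule F K), (lin F K).rk w = 1 →
      w ≤ (F ∙ ϑ ^ i) ⊔ (F ∙ ϑ ^ (i + 1)) → LT (lin F K) H w ((F ∙ ϑ ^ i) ⊔ F ∙ ϑ ^ (i + 1)) := by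
    intro i w hw hwl
    have h1 := pow_ne_zero i h0
    have h2 := pow_ne_zero (i + 1) h0
    refine LT.all (rk_span h1) (rk_span h2) (hne i) le_sup_left le_sup_right
      (h.lt_eig hq h1 h2 (hne i) (h.gal_mem σ) (hσi i) (hσi (i + 1)) ?_) ?_ hw hwl
    · rw [pow_succ, div_mul_eq_div_div, div_self (pow_ne_zero i hζ0), one_div]
      exact hζ.inv
    · rw [sup_comm]
      refine h.lt_eig hq h2 h1 (hne i).symm (h.gal_mem σ) (hσi (i + 1)) (hσi i) ?_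
      rw [pow_succ', mul_div_assoc, div_self (pow_ne_zero i hζ0), mul_one]
      exact hζ
  have hx' : (lin F K).rk x = 1 := (lin_rk x).trans hx
  have hl' : (lin F K).rk l = 2 := (lin_rk l).trans hl
  obtain ⟨y, hy, hyl, hyx⟩ := (lin F K).exists_rk1 (a := l) (b := x) fun hh => by
    have := (lin F K).rk_mono hh; omega
  have hxy : x ≠ y := fun e => hyx e.ge
  have hly : x ⊔ y = l :=
    (lin F K).eq_of_rk_le (sup_le hxl hyl) (by rw [PG.rk_sup_pts _ hx' hy hxy, hl'])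
  obtain ⟨z, t, ht, hz, hzt, e⟩ := exists_pair h.rank h.prime.pos hq
    (l := (F ∙ ϑ ^ 0) ⊔ F ∙ ϑ ^ (0 + 1)) (by
      rw [← lin_rk]
      exact (lin F K).rk_sup_pts (rk_span (pow_ne_zero _ h0)) (rk_span (pow_ne_zero _ h0)) (hne 0))
  obtain ⟨a, ha, t', ht', e1⟩ := h.all_hit hq hx (lin_rk y ▸ hy) hxy
  obtain ⟨b, hbH, e2⟩ := h.hit hx (lin_rk y ▸ hy) hxy ha ht' e1 ht hz hzt
  obtain ⟨w, hw, ew⟩ := exists_of_rk (x := b • x) (by rw [PG.rk_smul]; exact hx')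
  obtain ⟨z0, hz0, rfl⟩ := exists_of_rk ((lin_rk z).trans hz)
  obtain ⟨i, s, hs, e3⟩ := hcl (w / z0) (div_ne_zero hw hz0)
  obtain ⟨s0, -, -, hs0⟩ := id hs
  let r : K ≃ₗ[F] K := mulE F (ϑ ^ i) (pow_ne_zero i h0)
  have hr : ∀ x, r x = ϑ ^ i * x := fun _ => rfl
  have e4 : s • (F ∙ w) = r • (F ∙ z0) := by
    have := congrArg (fun U => mulE F z0 hz0 • U) e3
    simp only [smul_span, mulE_apply, hs0] at this ⊢
    rw [hr, mul_comm (ϑ ^ i), ← this]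
    congr 2
    field_simp
  have hrt : r * t = t * r := by
    obtain ⟨t0, -, -, ht0⟩ := ht
    ext x
    rw [LinearEquiv.mul_apply, LinearEquiv.mul_apply, hr, ht0, ht0, hr, mul_left_comm]
  have e5 : (s * b) • l = (F ∙ ϑ ^ i) ⊔ F ∙ ϑ ^ (i + 1) := by
    rw [← hly, (lin F K).smul_sup, mul_smul, mul_smul, e2, ew, ← mul_smul s t, T0_comm hs ht,
      mul_smul, e4, ← mul_smul t r, ← hrt, mul_smul, ← (lin F K).smul_sup, e, (lin F K).smul_sup,
      li_mul_span hr, li_mul_span hr, ← pow_add, ← pow_add, add_zero, zero_add]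
  have hsb : s * b ∈ H := mul_mem (h.T0_le hs) hbH
  have h3 := hstd i ((s * b) • x) (by rw [PG.rk_smul]; exact hx')
    (by rw [← e5]; exact (lin F K).smul_mono _ hxl)
  have h4 := h3.smul (inv_mem hsb)
  rwa [← e5, inv_smul_smul, inv_smul_smul] at h4

theorem Hyp5.two (h : Hyp5 H n) : (lin F K).Two H ⊥ ⊤ := by
  by_cases hq : n ∣ Nat.card F - 1
  swap
  · exact h.two_one hq
  have hb := h.big
  refine two_of_at (at_of_lines (by rw [lin_n, h.rank]; omega)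
    (by simpa only [lin_rk] using h.tr) fun x l hx hl hxl =>
      h.lt hq (lin_rk x ▸ hx) (lin_rk l ▸ hl) hxl) fun x y hx hy hxy => ?_
  have h1 := h.large' hq (lin_rk x ▸ hx) (lin_rk y ▸ hy) hxy
  simp only [PG.θ, lin_q, lin_n, h.rank]
  exact h1.2.2

end CfsgLib.Sgr
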